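import Mathlib
import Cfsg.Prelude.Def_GeometricClasses
import Cfsg.Agent.Lib.Helper71.OK1
import Cfsg.Agent.Lib.Helper52.Siegel

/-!
# S5701 piece A1 (for helper71): `L`-Eichler maps and double reflections lie in `NO`
-/

set_option autoImplicit false

namespace Cfsg.Agent.Lib.Helper55.OKA1

open Matrix Cfsg.Agent.Lib.Helper71.SpK Cfsg.Agent.Lib.Helper71.OK
open scoped commutatorElement

section general

variable {ι : Type} [Fintype ι] [DecidableEq ι] {F : Type*} [Field F]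
  {Q : QuadraticForm F (ι → F)} {L : Type*} [Field L] [Algebra F L]

/-- `T` is an `L`-linear map preserving `B` -/
structure LIso (S : KO (QuadraticMap.polar ⇑Q) L) (T : (ι → F) → (ι → F)) : Prop where
  add : ∀ x y, T (x + y) = T x + T y
  act : ∀ (l : L) (x : ι → F), T (S.φ l *ᵥ x) = S.φ l *ᵥ T x
  pres : ∀ x y, S.B (T x) (T y) = S.B x y

theorem LIso.sub {S : KO (QuadraticMap.polar ⇑Q) L} {T : (ι → F) → (ι → F)} (hT : LIso S T)
    (x y : ι → F) : T (x - y) = T x - T y := by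
  have h := hT.add (x - y) y
  rw [sub_add_cancel] at h
  rw [h, add_sub_cancel_right]

/-- an invertible `L`-linear `B`-isometry is realised by an element of the isometry group
commuting with `L` -/
theorem exists_iso (S : KO (QuadraticMap.polar ⇑Q) L) (h2 : (2 : F) ≠ 0)
    {T T' : (ι → F) → (ι → F)} (hT : LIso S T) (h1 : ∀ x, T (T' x) = x)
    (h1' : ∀ x, T' (T x) = x) :
    ∃ g : GL ι F, g ∈ Cfsg.isometryGroup F ⇑Q ∧ g ∈ S.CL ∧
      (∀ x, (g : Matrix ι ι F) *ᵥ x = T x) ∧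
      (∀ x, ((g⁻¹ : GL ι F) : Matrix ι ι F) *ᵥ x = T' x) := by
  have hsmul : ∀ (c : F) (x : ι → F), T (c • x) = c • T x := by
    intro c x
    rw [← S.φ_algebraMap_mulVec, hT.act, S.φ_algebraMap_mulVec]
  have hadd' : ∀ x y, T' (x + y) = T' x + T' y := by
    intro x y
    have h : T (T' x + T' y) = x + y := by rw [hT.add, h1, h1]
    rw [← h, h1']
  have hsmul' : ∀ (c : F) (x : ι → F), T' (c • x) = c • T' x := by
    intro c x
    have h : T (c • T' x) = c • x := by rw [hsmul, h1]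
    rw [← h, h1']
  let Tl : (ι → F) →ₗ[F] (ι → F) :=
    { toFun := T, map_add' := hT.add, map_smul' := fun c x => hsmul c x }
  let Tl' : (ι → F) →ₗ[F] (ι → F) :=
    { toFun := T', map_add' := hadd', map_smul' := fun c x => hsmul' c x }
  have hA : ∀ x, LinearMap.toMatrix' Tl *ᵥ x = T x := by
    intro x
    rw [← Matrix.toLin'_apply, Matrix.toLin'_toMatrix']
    rfl
  have hA' : ∀ x, LinearMap.toMatrix' Tl' *ᵥ x = T' x := by
    intro x
    rw [← Matrix.toLin'_apply, Matrix.toLin'_toMatrix']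
    rfl
  have hAA' : LinearMap.toMatrix' Tl * LinearMap.toMatrix' Tl' = 1 := by
    apply Matrix.mulVec_injective
    funext x
    rw [← Matrix.mulVec_mulVec, hA', hA, h1, Matrix.one_mulVec]
  have hA'A : LinearMap.toMatrix' Tl' * LinearMap.toMatrix' Tl = 1 := by
    apply Matrix.mulVec_injective
    funext x
    rw [← Matrix.mulVec_mulVec, hA, hA', h1', Matrix.one_mulVec]
  let g : GL ι F := ⟨LinearMap.toMatrix' Tl, LinearMap.toMatrix' Tl', hAA', hA'A⟩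
  have hg : ∀ x, (g : Matrix ι ι F) *ᵥ x = T x := hA
  refine ⟨g, ?_, ?_, hg, ?_⟩
  · rw [Cfsg.Agent.Lib.Helper51.mem_isometryGroup_iff]
    intro x
    rw [hg]
    have e1 := S.two_Q (T x)
    have e2 := S.two_Q x
    rw [hT.pres] at e1
    rw [← e2] at e1
    exact mul_left_cancel₀ h2 e1
  · apply S.mem_CL_of_act
    intro l x
    rw [hg, hg, hT.act]
  · intro x
    have h : ((g⁻¹ : GL ι F) : Matrix ι ι F) *ᵥ ((g : Matrix ι ι F) *ᵥ T' x) = T' x :=
      gl_inv_mulVec g (T' x)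
    rw [hg, h1] at h
    exact h

/-- commutators of `L`-linear isometries lie in `NO` -/
theorem comm_mem_NO (S : KO (QuadraticMap.polar ⇑Q) L) (g₁ g₂ : GL ι F)
    (h₁ : g₁ ∈ Cfsg.isometryGroup F ⇑Q) (h₂ : g₂ ∈ Cfsg.isometryGroup F ⇑Q)
    (c₁ : g₁ ∈ S.CL) (c₂ : g₂ ∈ S.CL) : g₁ * g₂ * g₁⁻¹ * g₂⁻¹ ∈ S.NO Q := by
  rw [S.mem_NO]
  refine ⟨S.CL.mul_mem (S.CL.mul_mem (S.CL.mul_mem c₁ c₂) (S.CL.inv_mem c₁)) (S.CL.inv_mem c₂),
    ?_⟩
  refine ⟨⁅(⟨g₁, h₁⟩ : ↥(Cfsg.isometryGroup F ⇑Q)), ⟨g₂, h₂⟩⁆, ?_, ?_⟩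
  · show _ ∈ commutator ↥(Cfsg.isometryGroup F ⇑Q)
    rw [commutator_def]
    exact Subgroup.commutator_mem_commutator (Subgroup.mem_top _) (Subgroup.mem_top _)
  · rw [commutatorElement_def]
    rfl

/-! ### Reflections -/

theorem sr_LIso (S : KO (QuadraticMap.polar ⇑Q) L) {a : ι → F} (ha : S.B a a ≠ 0) :
    LIso S (S.sr a) := by
  refine ⟨fun x y => ?_, fun l x => ?_, fun x y => ?_⟩
  · show x + y - S.φ (2 * S.B (x + y) a * (S.B a a)⁻¹) *ᵥ a =
      (x - S.φ (2 * S.B x a * (S.B a a)⁻¹) *ᵥ a) + (y - S.φ (2 * S.B y a * (S.B a a)⁻¹) *ᵥ a)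
    rw [S.B_add, mul_add, add_mul, S.φ_add_mulVec]
    abel
  · show S.φ l *ᵥ x - S.φ (2 * S.B (S.φ l *ᵥ x) a * (S.B a a)⁻¹) *ᵥ a =
      S.φ l *ᵥ (x - S.φ (2 * S.B x a * (S.B a a)⁻¹) *ᵥ a)
    rw [S.B_act, Matrix.mulVec_sub, ← S.φ_mul_mulVec]
    have e : 2 * (l * S.B x a) * (S.B a a)⁻¹ = l * (2 * S.B x a * (S.B a a)⁻¹) := by ring
    rw [e]
  · show S.B (x - S.φ (2 * S.B x a * (S.B a a)⁻¹) *ᵥ a)
      (y - S.φ (2 * S.B y a * (S.B a a)⁻¹) *ᵥ a) = S.B x y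
    simp only [S.B_sub_left, S.B_sub_right, S.B_act, S.B_act_right]
    rw [S.B_symm a y]
    field_simp
    ring

theorem sr_sr (S : KO (QuadraticMap.polar ⇑Q) L) {a : ι → F} (ha : S.B a a ≠ 0) (x : ι → F) :
    S.sr a (S.sr a x) = x := by
  show (x - S.φ (2 * S.B x a * (S.B a a)⁻¹) *ᵥ a) -
    S.φ (2 * S.B (x - S.φ (2 * S.B x a * (S.B a a)⁻¹) *ᵥ a) a * (S.B a a)⁻¹) *ᵥ a = x
  have e : 2 * S.B (x - S.φ (2 * S.B x a * (S.B a a)⁻¹) *ᵥ a) a * (S.B a a)⁻¹ =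
      -(2 * S.B x a * (S.B a a)⁻¹) := by
    rw [S.B_sub_left, S.B_act]
    field_simp
    ring
  rw [e, S.φ_neg_mulVec]
  abel

theorem sr_fix (S : KO (QuadraticMap.polar ⇑Q) L) {u z : ι → F} (hz : S.B u z = 0) :
    S.sr z u = u := by
  show u - S.φ (2 * S.B u z * (S.B z z)⁻¹) *ᵥ z = u
  rw [hz, mul_zero, zero_mul, S.φ_zero_mulVec, sub_zero]

/-! ### Eichler maps -/

theorem half_mul_two (h2 : (2 : F) ≠ 0) : algebraMap F L 2⁻¹ * 2 = 1 := by
  have h : (2 : L) = algebraMap F L 2 := (map_ofNat (algebraMap F L) 2).symm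
  rw [h, ← map_mul, inv_mul_cancel₀ h2, map_one]

theorem rho_eq (S : KO (QuadraticMap.polar ⇑Q) L) (u z x : ι → F) :
    S.rho u z x = x + S.φ (S.B x z - algebraMap F L 2⁻¹ * (S.B z z * S.B x u)) *ᵥ u -
      S.φ (S.B x u) *ᵥ z := by
  show x + S.φ (S.B x z) *ᵥ u - S.φ (S.B x u) *ᵥ z -
    (2⁻¹ : F) • (S.φ (S.B z z * S.B x u) *ᵥ u) = _
  rw [S.φ_sub_mulVec, S.φ_mul_mulVec (algebraMap F L 2⁻¹), S.φ_algebraMap_mulVec]
  abel

theorem rho_B_u (S : KO (QuadraticMap.polar ⇑Q) L) {u z : ι → F} (hu : S.B u u = 0)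
    (hz : S.B u z = 0) (x : ι → F) : S.B (S.rho u z x) u = S.B x u := by
  rw [rho_eq]
  simp only [S.B_add, S.B_sub_left, S.B_act]
  rw [hu, S.B_symm z u, hz]
  ring

theorem rho_LIso (S : KO (QuadraticMap.polar ⇑Q) L) (h2 : (2 : F) ≠ 0) {u z : ι → F}
    (hu : S.B u u = 0) (hz : S.B u z = 0) : LIso S (S.rho u z) := by
  have hh : algebraMap F L 2⁻¹ * 2 = 1 := half_mul_two h2
  refine ⟨fun x y => ?_, fun l x => ?_, fun x y => ?_⟩
  · rw [rho_eq, rho_eq, rho_eq, S.B_add, S.B_add]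
    have e : S.B x z + S.B y z - algebraMap F L 2⁻¹ * (S.B z z * (S.B x u + S.B y u)) =
        (S.B x z - algebraMap F L 2⁻¹ * (S.B z z * S.B x u)) +
          (S.B y z - algebraMap F L 2⁻¹ * (S.B z z * S.B y u)) := by ring
    rw [e, S.φ_add_mulVec, S.φ_add_mulVec]
    abel
  · rw [rho_eq, rho_eq, S.B_act, S.B_act, Matrix.mulVec_sub, Matrix.mulVec_add,
      ← S.φ_mul_mulVec, ← S.φ_mul_mulVec]
    have e : l * S.B x z - algebraMap F L 2⁻¹ * (S.B z z * (l * S.B x u)) =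
        l * (S.B x z - algebraMap F L 2⁻¹ * (S.B z z * S.B x u)) := by ring
    rw [e]
  · rw [rho_eq, rho_eq]
    simp only [S.B_add, S.B_add_right, S.B_sub_left, S.B_sub_right, S.B_act, S.B_act_right]
    rw [hu, hz, S.B_symm z u, hz, S.B_symm u y, S.B_symm z y]
    linear_combination (-(S.B z z * S.B x u * S.B y u)) * hh

theorem rho_rho (S : KO (QuadraticMap.polar ⇑Q) L) (h2 : (2 : F) ≠ 0) {u z z' : ι → F}
    (hu : S.B u u = 0) (hz : S.B u z = 0) (hz' : S.B u z' = 0) (x : ι → F) :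
    S.rho u z (S.rho u z' x) = S.rho u (z + z') x := by
  have hh : algebraMap F L 2⁻¹ * 2 = 1 := half_mul_two h2
  have e1 : S.B (S.rho u z' x) u = S.B x u := rho_B_u S hu hz' x
  have e2 : S.B (S.rho u z' x) z = S.B x z - S.B x u * S.B z' z := by
    rw [rho_eq]
    simp only [S.B_add, S.B_sub_left, S.B_act]
    rw [hz]
    ring
  rw [rho_eq S u z, e1, e2, rho_eq S u z' x, rho_eq S u (z + z') x]
  simp only [S.B_add, S.B_add_right]
  rw [S.φ_mulVec_add]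
  have key : S.φ (S.B x z' - algebraMap F L 2⁻¹ * (S.B z' z' * S.B x u)) *ᵥ u +
      S.φ (S.B x z - S.B x u * S.B z' z - algebraMap F L 2⁻¹ * (S.B z z * S.B x u)) *ᵥ u =
      S.φ (S.B x z + S.B x z' - algebraMap F L 2⁻¹ *
        ((S.B z z + S.B z z' + (S.B z' z + S.B z' z')) * S.B x u)) *ᵥ u := by
    rw [← S.φ_add_mulVec]
    congr 2
    rw [S.B_symm z z']
    linear_combination (S.B x u * S.B z' z) * hh
  rw [← key]
  abel

theorem rho_zero (S : KO (QuadraticMap.polar ⇑Q) L) (u x : ι → F) : S.rho u 0 x = x := by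
  rw [rho_eq, S.B_zero_right, S.B_zero_left, zero_mul, mul_zero, sub_zero, S.φ_zero_mulVec,
    Matrix.mulVec_zero, add_zero, sub_zero]

/-- conjugating an Eichler map by an invertible `L`-linear isometry -/
theorem conj_rho (S : KO (QuadraticMap.polar ⇑Q) L) {T T' : (ι → F) → (ι → F)}
    (hT : LIso S T) (h1 : ∀ x, T (T' x) = x) (u w x : ι → F) :
    T (S.rho u w (T' x)) = S.rho (T u) (T w) x := by
  have e1 : S.B (T' x) w = S.B x (T w) := by rw [← hT.pres, h1]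
  have e2 : S.B (T' x) u = S.B x (T u) := by rw [← hT.pres, h1]
  have e3 : S.B w w = S.B (T w) (T w) := (hT.pres w w).symm
  rw [rho_eq, rho_eq, hT.sub, hT.add, hT.act, hT.act, h1, e1, e2, e3]


/-! ### A non-singular vector orthogonal to a singular one -/

theorem card_le_of_span [FiniteDimensional F L] (S : KO (QuadraticMap.polar ⇑Q) L)
    (u x' : ι → F) (h : ∀ y : ι → F, ∃ a b : L, S.φ a *ᵥ u + S.φ b *ᵥ x' = y) :
    Fintype.card ι ≤ 2 * Module.finrank F L := by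
  let f : (L × L) →ₗ[F] (ι → F) := (S.actL u).coprod (S.actL x')
  have hf : LinearMap.range f = ⊤ := by
    rw [eq_top_iff]
    intro y _
    obtain ⟨a, b, hab⟩ := h y
    exact ⟨(a, b), hab⟩
  have h1 := f.finrank_range_add_finrank_ker
  rw [hf, finrank_top, Module.finrank_fintype_fun_eq_card, Module.finrank_prod] at h1
  omega

theorem nonsing_perp [FiniteDimensional F L] (S : KO (QuadraticMap.polar ⇑Q) L)
    (h2 : (2 : F) ≠ 0) (hQ : (QuadraticMap.polarBilin Q).Nondegenerate)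
    (hr : (Module.finrank F L).Prime) (hd : 4 * Module.finrank F L ≤ Fintype.card ι)
    {u : ι → F} (huu : S.B u u = 0) : ∃ w, S.B w u = 0 ∧ S.B w w ≠ 0 := by
  have hh : algebraMap F L 2⁻¹ * 2 = 1 := half_mul_two h2
  have h2L : (2 : L) ≠ 0 := by
    intro h
    rw [h, mul_zero] at hh
    exact zero_ne_one hh
  have hrpos : 0 < Module.finrank F L := hr.pos
  by_contra hcon
  push Not at hcon
  by_cases hu0 : u = 0
  · subst hu0
    have hall : ∀ w, S.B w w = 0 := fun w => hcon w (S.B_zero_right w)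
    have hB : ∀ x y, S.B x y = 0 := by
      intro x y
      have h := hall (x + y)
      rw [S.B_add, S.B_add_right, S.B_add_right, hall x, hall y, S.B_symm y x] at h
      have h3 : 2 * S.B x y = 0 := by linear_combination h
      exact (mul_eq_zero.mp h3).resolve_left h2L
    have hι : Nonempty ι := by
      rw [← Fintype.card_pos_iff]
      omega
    obtain ⟨i⟩ := hι
    have hne : (Pi.single i (1 : F) : ι → F) ≠ 0 := by
      intro h
      have h3 := congrFun h i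
      simp at h3
    obtain ⟨x, hx⟩ := S.B_nondeg hQ hne
    exact hx (hB _ _)
  · obtain ⟨x₀, hx₀⟩ := S.B_nondeg hQ hu0
    have hex : ∃ x' : ι → F, S.B x' u = 1 ∧ S.B x' x' = 0 := by
      have h1 : S.B (S.φ (S.B x₀ u)⁻¹ *ᵥ x₀) u = 1 := by
        rw [S.B_act, inv_mul_cancel₀ hx₀]
      generalize S.φ (S.B x₀ u)⁻¹ *ᵥ x₀ = x₁ at h1
      refine ⟨x₁ - S.φ (algebraMap F L 2⁻¹ * S.B x₁ x₁) *ᵥ u, ?_, ?_⟩
      · rw [S.B_sub_left, S.B_act, huu, mul_zero, sub_zero, h1]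
      · simp only [S.B_sub_left, S.B_sub_right, S.B_act, S.B_act_right]
        rw [huu, S.B_symm u x₁, h1]
        linear_combination (-(S.B x₁ x₁)) * hh
    obtain ⟨x', h1', hx'x'⟩ := hex
    have hstar : ∀ y, S.B y y = 2 * S.B y x' * S.B y u := by
      intro y
      have hy := hcon (y - S.φ (S.B y x') *ᵥ u - S.φ (S.B y u) *ᵥ x') (by
        simp only [S.B_sub_left, S.B_act]
        rw [huu, h1']
        ring)
      simp only [S.B_sub_left, S.B_sub_right, S.B_act, S.B_act_right] at hy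
      rw [S.B_symm u y, S.B_symm x' y, S.B_symm u x'] at hy
      rw [huu, hx'x', h1'] at hy
      linear_combination hy
    have hpol : ∀ y y₂, S.B y y₂ = S.B y x' * S.B y₂ u + S.B y₂ x' * S.B y u := by
      intro y y₂
      have h := hstar (y + y₂)
      rw [S.B_add, S.B_add_right, S.B_add_right, S.B_add, S.B_add, hstar y, hstar y₂,
        S.B_symm y₂ y] at h
      have h3 : 2 * (S.B y y₂ - (S.B y x' * S.B y₂ u + S.B y₂ x' * S.B y u)) = 0 := by
        linear_combination h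
      exact sub_eq_zero.mp ((mul_eq_zero.mp h3).resolve_left h2L)
    have hspan : ∀ y₂ : ι → F, ∃ a b : L, S.φ a *ᵥ u + S.φ b *ᵥ x' = y₂ := by
      intro y₂
      refine ⟨S.B y₂ x', S.B y₂ u, ?_⟩
      by_contra hne
      have hne' : y₂ - (S.φ (S.B y₂ x') *ᵥ u + S.φ (S.B y₂ u) *ᵥ x') ≠ 0 := by
        intro h
        exact hne (sub_eq_zero.mp h).symm
      obtain ⟨y, hy⟩ := S.B_nondeg hQ hne'
      apply hy
      rw [S.B_sub_right, S.B_add_right, S.B_act_right, S.B_act_right, hpol y y₂]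
      ring
    have h3 := card_le_of_span S u x' hspan
    omega

/-- the Eichler map `rho u z` for non-singular `z` is a commutator of `L`-linear isometries -/
theorem exists_rho_nonsing (S : KO (QuadraticMap.polar ⇑Q) L) (h2 : (2 : F) ≠ 0)
    {u z : ι → F} (hu : S.B u u = 0) (hz : S.B u z = 0) (hzz : S.B z z ≠ 0) :
    ∃ g ∈ S.NO Q, ∀ x, (g : Matrix ι ι F) *ᵥ x = S.rho u z x := by
  have hh : algebraMap F L 2⁻¹ * 2 = 1 := half_mul_two h2
  have hww : (2⁻¹ : F) • z + (2⁻¹ : F) • z = z := by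
    rw [← add_smul]
    have e : (2⁻¹ : F) + 2⁻¹ = 1 := by
      field_simp
      norm_num
    rw [e, one_smul]
  have huw : S.B u ((2⁻¹ : F) • z) = 0 := by rw [S.B_smul_right, hz, mul_zero]
  have hunw : S.B u (-((2⁻¹ : F) • z)) = 0 := by rw [S.B_neg_right, huw, neg_zero]
  have hsw : S.sr z (-((2⁻¹ : F) • z)) = (2⁻¹ : F) • z := by
    show -((2⁻¹ : F) • z) - S.φ (2 * S.B (-((2⁻¹ : F) • z)) z * (S.B z z)⁻¹) *ᵥ z = (2⁻¹ : F) • z
    have e : 2 * S.B (-((2⁻¹ : F) • z)) z * (S.B z z)⁻¹ = -1 := by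
      rw [S.B_neg_left, S.B_smul_left]
      have e' : 2 * -(algebraMap F L 2⁻¹ * S.B z z) * (S.B z z)⁻¹ =
          -(algebraMap F L 2⁻¹ * 2) * (S.B z z * (S.B z z)⁻¹) := by ring
      rw [e', hh, mul_inv_cancel₀ hzz, mul_one]
    rw [e, S.φ_neg_mulVec, S.φ_one_mulVec]
    nth_rewrite 2 [← hww]
    abel
  obtain ⟨σ, iσ, cσ, aσ, aσ'⟩ := exists_iso S h2 (sr_LIso S hzz) (sr_sr S hzz) (sr_sr S hzz)
  have hinv1 : ∀ x, S.rho u (-((2⁻¹ : F) • z)) (S.rho u ((2⁻¹ : F) • z) x) = x := by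
    intro x
    rw [rho_rho S h2 hu hunw huw, neg_add_cancel, rho_zero]
  have hinv2 : ∀ x, S.rho u ((2⁻¹ : F) • z) (S.rho u (-((2⁻¹ : F) • z)) x) = x := by
    intro x
    rw [rho_rho S h2 hu huw hunw, add_neg_cancel, rho_zero]
  obtain ⟨τ, iτ, cτ, aτ, aτ'⟩ := exists_iso S h2 (rho_LIso S h2 hu hunw) hinv1 hinv2
  refine ⟨σ * τ * σ⁻¹ * τ⁻¹, comm_mem_NO S σ τ iσ iτ cσ cτ, fun x => ?_⟩
  rw [gl_mul_mulVec, gl_mul_mulVec, gl_mul_mulVec, aτ', aσ', aτ, aσ]
  rw [conj_rho S (sr_LIso S hzz) (sr_sr S hzz) u (-((2⁻¹ : F) • z))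
    (S.rho u ((2⁻¹ : F) • z) x), sr_fix S hz, hsw, rho_rho S h2 hu huw huw, hww]

end general

/-! ### The two statements of piece A1 -/

theorem exists_rho {ι : Type} [Fintype ι] [DecidableEq ι] {F : Type*} [Field F] [Finite F]
    {Q : QuadraticForm F (ι → F)} {L : Type*} [Field L] [Algebra F L] [FiniteDimensional F L]
    (S : KO (QuadraticMap.polar ⇑Q) L) (h2 : (2 : F) ≠ 0)
    (hQ : (QuadraticMap.polarBilin Q).Nondegenerate)
    (hr : (Module.finrank F L).Prime) (hd : 4 * Module.finrank F L ≤ Fintype.card ι) {u z : ι → F} (hu : S.B u u = 0) (hz : S.B u z = 0) :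
    ∃ g ∈ S.NO Q, ∀ x, (g : Matrix ι ι F) *ᵥ x = S.rho u z x := by
  by_cases hzz : S.B z z = 0
  · obtain ⟨w₀, hw₀u, hw₀⟩ := nonsing_perp S h2 hQ hr hd hu
    have h2L : (2 : L) ≠ 0 := by
      intro h
      have hh := half_mul_two (L := L) h2
      rw [h, mul_zero] at hh
      exact zero_ne_one hh
    have hsign : ∃ w, S.B u w = 0 ∧ S.B w w ≠ 0 ∧ S.B (z - w) (z - w) ≠ 0 := by
      by_cases h : S.B (z - w₀) (z - w₀) = 0
      · refine ⟨-w₀, ?_, ?_, ?_⟩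
        · rw [S.B_neg_right, S.B_symm, hw₀u, neg_zero]
        · rw [S.B_neg_left, S.B_neg_right, neg_neg]
          exact hw₀
        · intro h'
          simp only [S.B_sub_left, S.B_sub_right, S.B_neg_left, S.B_neg_right] at h h'
          rw [hzz, S.B_symm w₀ z] at h h'
          apply hw₀
          have h3 : 2 * S.B w₀ w₀ = 0 := by linear_combination h + h'
          exact (mul_eq_zero.mp h3).resolve_left h2L
      · exact ⟨w₀, by rw [S.B_symm, hw₀u], hw₀, h⟩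
    obtain ⟨w, huw, hww, hzw⟩ := hsign
    have huzw : S.B u (z - w) = 0 := by rw [S.B_sub_right, hz, huw, sub_zero]
    obtain ⟨g₁, hg₁, a₁⟩ := exists_rho_nonsing S h2 hu huzw hzw
    obtain ⟨g₂, hg₂, a₂⟩ := exists_rho_nonsing S h2 hu huw hww
    refine ⟨g₁ * g₂, (S.NO Q).mul_mem hg₁ hg₂, fun x => ?_⟩
    rw [gl_mul_mulVec, a₂, a₁, rho_rho S h2 hu huzw huw, sub_add_cancel]
  · exact exists_rho_nonsing S h2 hu hz hzz

theorem exists_refl_comm {ι : Type} [Fintype ι] [DecidableEq ι] {F : Type*} [Field F] [Finite F]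
    {Q : QuadraticForm F (ι → F)} {L : Type*} [Field L] [Algebra F L] [FiniteDimensional F L]
    (S : KO (QuadraticMap.polar ⇑Q) L) (h2 : (2 : F) ≠ 0)
    (hQ : (QuadraticMap.polarBilin Q).Nondegenerate)
    (hr : (Module.finrank F L).Prime) (hd : 4 * Module.finrank F L ≤ Fintype.card ι) {a b : ι → F} (ha : S.B a a ≠ 0) (hb : S.B b b ≠ 0) :
    ∃ g ∈ S.NO Q, ∀ x, (g : Matrix ι ι F) *ᵥ x = S.sr a (S.sr b (S.sr a (S.sr b x))) := by
  obtain ⟨g₁, i₁, c₁, a₁, a₁'⟩ := exists_iso S h2 (sr_LIso S ha) (sr_sr S ha) (sr_sr S ha)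
  obtain ⟨g₂, i₂, c₂, a₂, a₂'⟩ := exists_iso S h2 (sr_LIso S hb) (sr_sr S hb) (sr_sr S hb)
  refine ⟨g₁ * g₂ * g₁⁻¹ * g₂⁻¹, comm_mem_NO S g₁ g₂ i₁ i₂ c₁ c₂, fun x => ?_⟩
  rw [gl_mul_mulVec, gl_mul_mulVec, gl_mul_mulVec, a₂', a₁', a₂, a₁]


end Cfsg.Agent.Lib.Helper55.OKA1
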