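import Mathlib
import Cfsg.Agent.Lib.Helper48.StB

/-!
# Piece TORB of S2401 (helper48's Steinberg presentation of `SL_n`): `π` is injective on the torus
-/

set_option autoImplicit false

namespace Cfsg.Agent.Lib.Helper48.St

open Cfsg.Agent.Lib.Helper48 Matrix

variable {K : Type*} [Field K] {G : Type*} [Group G] {n : ℕ}
variable {X : Fin n → Fin n → K → G}

/-- the matrix of `w_ij(t)` -/
theorem h55_pi_stW (π : G →* Matrix.SpecialLinearGroup (Fin n) K)
    (hπ : ∀ i j (hij : i ≠ j) t, π (X i j t) = Matrix.SpecialLinearGroup.transvection hij t)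
    (i j : Fin n) (hij : i ≠ j) (t : K) (ht : t ≠ 0) (a b : Fin n) :
    (π (stW X i j t) : Matrix (Fin n) (Fin n) K) a b =
      if a = i then (if b = j then t else 0)
      else if a = j then (if b = i then -t⁻¹ else 0)
      else (if a = b then 1 else 0) := by
  unfold stW
  rw [map_mul, map_mul, hπ i j hij, hπ j i hij.symm]
  simp only [Matrix.SpecialLinearGroup.coe_mul, Matrix.SpecialLinearGroup.transvection_coe]
  have e : ((1 : Matrix (Fin n) (Fin n) K) + Matrix.single i j t) *
      (1 + Matrix.single j i (-t⁻¹)) * (1 + Matrix.single i j t) =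
      1 + Matrix.single i j t + Matrix.single j i (-t⁻¹) + Matrix.single i i (-1)
        + Matrix.single j j (-1) := by
    simp only [mul_add, add_mul, one_mul, mul_one, Matrix.single_mul_single_same,
      Matrix.single_mul_single_of_ne _ _ _ _ hij, Matrix.single_mul_single_of_ne _ _ _ _ hij.symm,
      mul_neg, neg_mul, mul_inv_cancel₀ ht, inv_mul_cancel₀ ht, zero_mul, mul_zero, add_zero,
      zero_add]
    have h1 : Matrix.single i j (-t) = -Matrix.single i j t := by
      rw [← Matrix.single_neg]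
    simp only [h1]
    abel
  rw [e]
  simp only [Matrix.add_apply, Matrix.one_apply, Matrix.single_apply]
  have hji : j ≠ i := hij.symm
  rcases eq_or_ne a i with rfl | hai
  · rcases eq_or_ne b a with rfl | hba
    · simp [hij, hji]
    · rcases eq_or_ne b j with rfl | hbj
      · simp [hij, hji]
      · simp [hij, hji, hba, hbj, hba.symm, hbj.symm]
  · rcases eq_or_ne a j with rfl | haj
    · rcases eq_or_ne b i with rfl | hbi
      · simp [hij, hji]
      · rcases eq_or_ne b a with rfl | hba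
        · simp [hij, hji]
        · simp [hij, hji, hba, hbi, hba.symm, hbi.symm]
    · rcases eq_or_ne a b with rfl | hab
      · simp [hai, haj, hai.symm, haj.symm]
      · simp [hai, haj, hai.symm, haj.symm, hab]

/-- the matrix of `h_ij(t)` -/
theorem h55_pi_stH (π : G →* Matrix.SpecialLinearGroup (Fin n) K)
    (hπ : ∀ i j (hij : i ≠ j) t, π (X i j t) = Matrix.SpecialLinearGroup.transvection hij t)
    (i j : Fin n) (hij : i ≠ j) (t : K) (ht : t ≠ 0) :
    (π (stH X i j t) : Matrix (Fin n) (Fin n) K) =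
      Matrix.diagonal (fun k => if k = i then t else if k = j then t⁻¹ else 1) := by
  have h1 : (π (stH X i j t) : Matrix (Fin n) (Fin n) K) *
      (π (stW X i j (1 : K)) : Matrix (Fin n) (Fin n) K) =
      (π (stW X i j t) : Matrix (Fin n) (Fin n) K) := by
    rw [← Matrix.SpecialLinearGroup.coe_mul, ← map_mul, ← stW_eq]
  have h2 : Matrix.diagonal (fun k => if k = i then t else if k = j then t⁻¹ else 1) *
      (π (stW X i j (1 : K)) : Matrix (Fin n) (Fin n) K) =
      (π (stW X i j t) : Matrix (Fin n) (Fin n) K) := by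
    ext a b
    rw [Matrix.diagonal_mul, h55_pi_stW π hπ i j hij 1 one_ne_zero,
      h55_pi_stW π hπ i j hij t ht]
    have hji : j ≠ i := hij.symm
    rcases eq_or_ne a i with rfl | hai
    · simp
    · rcases eq_or_ne a j with rfl | haj
      · simp [hji]
      · simp [hai, haj]
  have hu : IsUnit (π (stW X i j (1 : K)) : Matrix (Fin n) (Fin n) K) := by
    rw [Matrix.isUnit_iff_isUnit_det, (π (stW X i j (1 : K))).2]
    exact isUnit_one
  exact hu.mul_left_injective (h1.trans h2.symm)

/-- the homomorphisms `t ↦ h_{i₀ k}(t)` -/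
def h55_eta (hS : SL2Facts X) (i₀ k : Fin n) (hk : i₀ ≠ k) : Kˣ →* G where
  toFun t := stH X i₀ k (t : K)
  map_one' := by rw [Units.val_one]; exact stH_one i₀ k
  map_mul' s t := by rw [Units.val_mul]; exact hS.H_mul i₀ k hk s t s.ne_zero t.ne_zero

theorem h55_eta_apply (hS : SL2Facts X) (i₀ k : Fin n) (hk : i₀ ≠ k) (t : Kˣ) :
    h55_eta hS i₀ k hk t = stH X i₀ k (t : K) := rfl

theorem h55_comm (hS : SL2Facts X) (hT : TorFacts X) (i₀ : Fin n) :
    Pairwise fun a b : {k : Fin n // i₀ ≠ k} =>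
      ∀ x y : Kˣ, Commute (h55_eta hS i₀ a.1 a.2 x) (h55_eta hS i₀ b.1 b.2 y) := by
  intro a b _ x y
  exact hT.H_comm i₀ a.1 i₀ b.1 a.2 b.2 x y x.ne_zero y.ne_zero

/-- the product of the homomorphisms `h55_eta` -/
noncomputable def h55_Phi (hS : SL2Facts X) (hT : TorFacts X) (i₀ : Fin n) :
    ({k : Fin n // i₀ ≠ k} → Kˣ) →* G :=
  MonoidHom.noncommPiCoprod (fun k : {k : Fin n // i₀ ≠ k} => h55_eta hS i₀ k.1 k.2)
    (h55_comm hS hT i₀)

theorem h55_Phi_mulSingle (hS : SL2Facts X) (hT : TorFacts X) (i₀ : Fin n)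
    (k : {k : Fin n // i₀ ≠ k}) (t : Kˣ) :
    h55_Phi hS hT i₀ (Pi.mulSingle k t) = stH X i₀ k.1 (t : K) := by
  unfold h55_Phi
  rw [MonoidHom.noncommPiCoprod_mulSingle]
  rfl

/-- the torus is contained in the range of `h55_Phi` -/
theorem h55_stT_le (hS : SL2Facts X) (hT : TorFacts X) (i₀ : Fin n) :
    stT X ≤ (h55_Phi hS hT i₀).range := by
  have key : ∀ (k : Fin n) (hk : i₀ ≠ k) (t : K), t ≠ 0 →
      stH X i₀ k t ∈ (h55_Phi hS hT i₀).range := by
    intro k hk t ht
    refine ⟨Pi.mulSingle ⟨k, hk⟩ (Units.mk0 t ht), ?_⟩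
    rw [h55_Phi_mulSingle]
    rfl
  unfold stT
  rw [Subgroup.closure_le]
  rintro g ⟨i, j, t, hij, ht, rfl⟩
  rcases eq_or_ne i₀ i with rfl | hi
  · exact key j hij t ht
  · rcases eq_or_ne i₀ j with rfl | hj
    · rw [hS.H_swap i₀ i hi t ht]
      exact key i hi t⁻¹ (inv_ne_zero ht)
    · rw [hT.H_rel i₀ i j hi hj hij t ht]
      exact mul_mem (key j hj t ht) (key i hi t⁻¹ (inv_ne_zero ht))

/-- the matrix of an element of the range of `h55_Phi` -/
theorem h55_pi_Phi (hS : SL2Facts X) (hT : TorFacts X) (i₀ : Fin n)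
    (π : G →* Matrix.SpecialLinearGroup (Fin n) K)
    (hπ : ∀ i j (hij : i ≠ j) t, π (X i j t) = Matrix.SpecialLinearGroup.transvection hij t)
    (d : {k : Fin n // i₀ ≠ k} → Kˣ) :
    (π (h55_Phi hS hT i₀ d) : Matrix (Fin n) (Fin n) K) =
      Matrix.diagonal (fun a => if h : i₀ ≠ a then (((d ⟨a, h⟩)⁻¹ : Kˣ) : K)
        else ∏ l, (d l : K)) := by
  let f₁ : ({k : Fin n // i₀ ≠ k} → Kˣ) →* Matrix (Fin n) (Fin n) K :=
    { toFun := fun d => (π (h55_Phi hS hT i₀ d) : Matrix (Fin n) (Fin n) K)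
      map_one' := by simp
      map_mul' := fun d e => by simp }
  let f₂ : ({k : Fin n // i₀ ≠ k} → Kˣ) →* Matrix (Fin n) (Fin n) K :=
    { toFun := fun d => Matrix.diagonal (fun a => if h : i₀ ≠ a then (((d ⟨a, h⟩)⁻¹ : Kˣ) : K)
        else ∏ l, (d l : K))
      map_one' := by
        rw [← Matrix.diagonal_one]
        congr 1
        funext a
        split_ifs <;> simp
      map_mul' := fun d e => by
        rw [Matrix.diagonal_mul_diagonal]
        congr 1
        funext a
        split_ifs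
        · simp [mul_comm]
        · simp [Finset.prod_mul_distrib] }
  have hf : f₁ = f₂ := by
    refine MonoidHom.pi_ext fun k t => ?_
    simp only [f₁, f₂, MonoidHom.coe_mk, OneHom.coe_mk]
    rw [h55_Phi_mulSingle, h55_pi_stH π hπ i₀ k.1 k.2 (t : K) t.ne_zero]
    congr 1
    funext a
    by_cases ha : i₀ ≠ a
    · rw [dif_pos ha, if_neg (Ne.symm ha)]
      by_cases hak : a = k.1
      · subst hak
        rw [if_pos rfl]
        have : (⟨k.1, ha⟩ : {k : Fin n // i₀ ≠ k}) = k := Subtype.ext rfl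
        rw [this, Pi.mulSingle_eq_same, Units.val_inv_eq_inv_val]
      · rw [if_neg hak]
        have : (⟨a, ha⟩ : {k : Fin n // i₀ ≠ k}) ≠ k := fun h => hak (congrArg Subtype.val h)
        rw [Pi.mulSingle_eq_of_ne this]
        simp
    · have ha' : a = i₀ := by
        by_contra h
        exact ha (Ne.symm h)
      rw [dif_neg ha, if_pos ha']
      rw [Finset.prod_eq_single k]
      · rw [Pi.mulSingle_eq_same]
      · intro b _ hb
        rw [Pi.mulSingle_eq_of_ne hb]
        rfl
      · intro h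
        exact absurd (Finset.mem_univ k) h
  exact congrArg (fun f : ({k : Fin n // i₀ ≠ k} → Kˣ) →* Matrix (Fin n) (Fin n) K => f d) hf

theorem torus_inj (hn : 2 ≤ n) (hW : WMon X) (hS : SL2Facts X) (hT : TorFacts X)
    (π : G →* Matrix.SpecialLinearGroup (Fin n) K)
    (hπ : ∀ i j (hij : i ≠ j) t, π (X i j t) = Matrix.SpecialLinearGroup.transvection hij t) :
    ∀ h ∈ stT X, (∀ a, (π h : Matrix (Fin n) (Fin n) K) a a = 1) → h = 1 := by
  intro h hh hdiag
  have i₀ : Fin n := ⟨0, by omega⟩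
  obtain ⟨d, rfl⟩ := h55_stT_le hS hT i₀ hh
  have hd : d = 1 := by
    funext k
    have h1 := hdiag k.1
    rw [h55_pi_Phi hS hT i₀ π hπ d, Matrix.diagonal_apply_eq, dif_pos k.2] at h1
    have h2 : (d k)⁻¹ = 1 := Units.ext h1
    rw [Pi.one_apply]
    exact inv_eq_one.mp h2
  rw [hd, map_one]

end Cfsg.Agent.Lib.Helper48.St
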