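import Mathlib
import Cfsg.Agent.Lib.Helper26.GrossMinA

/-!
Piece FINAL for S3793 (poster helper26): the abstract minimal configuration with
`|Q| = (a - 1) ^ 2 * |R|` is contradictory.
-/

set_option autoImplicit false
open scoped commutatorElement

namespace Cfsg.Agent.Lib.Helper55.GrossFinal

open Cfsg.Agent.Lib.Helper26

universe u

/-- running product `f 0 * f 1 * ... * f (m - 1)` -/
def gprod {Γ : Type*} [Group Γ] (f : ℕ → Γ) : ℕ → Γ
  | 0 => 1
  | (m + 1) => gprod f m * f m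

theorem gprod_mem {Γ : Type*} [Group Γ] (f : ℕ → Γ) (H : Subgroup Γ) (hf : ∀ i, f i ∈ H) :
    ∀ m, gprod f m ∈ H := by
  intro m
  induction m with
  | zero => exact H.one_mem
  | succ m ih => exact H.mul_mem ih (hf m)

theorem gprod_shift {Γ : Type*} [Group Γ] (f : ℕ → Γ) :
    ∀ m, gprod f (m + 1) = f 0 * gprod (fun i => f (i + 1)) m := by
  intro m
  induction m with
  | zero => simp [gprod]
  | succ m ih =>
    show gprod f (m + 1) * f (m + 1) = f 0 * (gprod (fun i => f (i + 1)) m * f (m + 1))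
    rw [ih, mul_assoc]

theorem gprod_conj {Γ : Type*} [Group Γ] (f : ℕ → Γ) (g : Γ) :
    ∀ m, g * gprod f m * g⁻¹ = gprod (fun i => g * f i * g⁻¹) m := by
  intro m
  induction m with
  | zero => simp [gprod]
  | succ m ih =>
    show g * (gprod f m * f m) * g⁻¹ = gprod (fun i => g * f i * g⁻¹) m * (g * f m * g⁻¹)
    rw [← ih]; group

theorem gprod_chi {Γ : Type*} [Group Γ] {k : Type*} [Field k] (χ : Γ → k) (Z : Subgroup Γ)
    (h1 : χ 1 = 1) (hmul : ∀ z ∈ Z, ∀ z' ∈ Z, χ (z * z') = χ z * χ z') (f : ℕ → Γ)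
    (hf : ∀ i, f i ∈ Z) :
    ∀ m, χ (gprod f m) = ∏ i ∈ Finset.range m, χ (f i) := by
  intro m
  induction m with
  | zero => simpa [gprod] using h1
  | succ m ih =>
    show χ (gprod f m * f m) = _
    rw [hmul _ (gprod_mem f Z hf m) _ (hf m), ih, Finset.prod_range_succ]

theorem prod_periodic {k : Type*} [CommMonoid k] (h : ℕ → k) (N : ℕ) (hN : 0 < N)
    (hper : ∀ i, h (i + N) = h i) (hone : ∀ i, 0 < i → i < N → h i = 1) :
    ∀ a, ∏ i ∈ Finset.range (N * a), h i = h 0 ^ a := by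
  have hper' : ∀ b i, h (N * b + i) = h i := by
    intro b
    induction b with
    | zero => intro i; simp
    | succ b ih =>
      intro i
      have e : N * (b + 1) + i = (N * b + i) + N := by ring
      rw [e, hper, ih]
  have hblock : ∏ i ∈ Finset.range N, h i = h 0 := by
    rw [Finset.prod_eq_single 0]
    · intro i hi hi0
      exact hone i (Nat.pos_of_ne_zero hi0) (Finset.mem_range.1 hi)
    · intro h0
      exact absurd (Finset.mem_range.2 hN) h0
  intro a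
  induction a with
  | zero => simp
  | succ a ih =>
    rw [Nat.mul_succ, Finset.prod_range_add, ih, pow_succ]
    congr 1
    rw [← hblock]
    apply Finset.prod_congr rfl
    intro i _
    exact hper' a i

theorem chi_pow {Γ : Type*} [Group Γ] {k : Type*} [Field k] (χ : Γ → k) (Z : Subgroup Γ)
    (h1 : χ 1 = 1) (hmul : ∀ z ∈ Z, ∀ z' ∈ Z, χ (z * z') = χ z * χ z') (z : Γ) (hz : z ∈ Z) :
    ∀ r : ℕ, χ (z ^ r) = χ z ^ r := by
  intro r
  induction r with
  | zero => simpa using h1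
  | succ r ih => rw [pow_succ, hmul _ (Z.pow_mem hz r) _ hz, ih, pow_succ]

/-- the conjugate `g R g⁻¹` -/
def cjs {Γ : Type*} [Group Γ] (R : Subgroup Γ) (g : Γ) : Subgroup Γ :=
  R.map (MulAut.conj g).toMonoidHom

theorem mem_cjs {Γ : Type*} [Group Γ] (R : Subgroup Γ) (g x : Γ) :
    x ∈ cjs R g ↔ g⁻¹ * x * g ∈ R := by
  constructor
  · rintro ⟨r, hr, rfl⟩
    have e : g⁻¹ * ((MulAut.conj g).toMonoidHom r) * g = r := by
      simp only [MulEquiv.toMonoidHom_eq_coe, MonoidHom.coe_coe, MulAut.conj_apply]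
      group
    rw [e]; exact hr
  · intro h
    refine ⟨g⁻¹ * x * g, h, ?_⟩
    simp only [MulEquiv.toMonoidHom_eq_coe, MonoidHom.coe_coe, MulAut.conj_apply]
    group

theorem card_cjs {Γ : Type*} [Group Γ] (R : Subgroup Γ) (g : Γ) :
    Nat.card (cjs R g) = Nat.card R :=
  Subgroup.card_map_of_injective (MulAut.conj g).injective

theorem card_inf_mul_relIndex {Γ : Type*} [Group Γ] (H K : Subgroup Γ) :
    Nat.card (H ⊓ K : Subgroup Γ) * H.relIndex K = Nat.card K := by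
  have h2 : Nat.card (H.subgroupOf K) * (H.subgroupOf K).index = Nat.card K :=
    Subgroup.card_mul_index _
  have h3 : Nat.card (H.subgroupOf K) = Nat.card (H ⊓ K : Subgroup Γ) := by
    rw [← Subgroup.inf_subgroupOf_right]
    exact Nat.card_congr (Subgroup.subgroupOfEquivOfLe inf_le_right).toEquiv
  rw [← h2, h3]
  rfl

theorem relIndex_eq_of_card {Γ : Type*} [Group Γ] [Finite Γ] (H K : Subgroup Γ) (hHK : H ≤ K)
    (c : ℕ) (hc : Nat.card K = c * Nat.card H) : H.relIndex K = c := by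
  have h := card_inf_mul_relIndex H K
  rw [inf_of_le_left hHK, hc] at h
  have hpos : 0 < Nat.card H := Nat.card_pos
  have : Nat.card H * H.relIndex K = Nat.card H * c := by rw [h, mul_comm]
  exact Nat.eq_of_mul_eq_mul_left hpos this

theorem gross_final {Γ : Type u} [Group Γ] [Finite Γ] {p q n : ℕ} {Q : Subgroup Γ} {φ : Γ}
    (hmin : GrossMin p q n Q φ) (hp2 : p ≠ 2) {k : Type*} [Field k] {χ : Γ → k} {R : Subgroup Γ}
    (hχ : GrossChi Q χ R) (N a : ℕ) (hNa : N * a = p ^ (n + 1)) (ha : 1 < a)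
    (hinv : ∀ z ∈ Q ⊓ Subgroup.centralizer (Q : Set Γ), χ (φ ^ N * z * (φ ^ N)⁻¹) = χ z)
    (hcard : Nat.card Q = (a - 1) ^ 2 * Nat.card R) : False := by
  have hp := hmin.hp
  have hq := hmin.hq
  have hqp := hmin.hqp
  set Z : Subgroup Γ := Q ⊓ Subgroup.centralizer (Q : Set Γ) with hZ
  -- arithmetic: a = p ^ j
  obtain ⟨j, hj, haj⟩ := (Nat.dvd_prime_pow hp).1 (Dvd.intro_left N hNa)
  have hj0 : 0 < j := by
    rcases Nat.eq_zero_or_pos j with h | h
    · subst h; simp at haj; omega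
    · exact h
  have hp3 : 3 ≤ p := by
    have := hp.two_le; omega
  have ha3 : 3 ≤ a := by
    rw [haj]
    calc 3 ≤ p := hp3
      _ = p ^ 1 := (pow_one p).symm
      _ ≤ p ^ j := Nat.pow_le_pow_right hp.pos hj0
  have hN : N = p ^ (n + 1 - j) := by
    have h1 : N * p ^ j = p ^ (n + 1 - j) * p ^ j := by
      rw [← haj, hNa, haj, ← pow_add, Nat.sub_add_cancel hj]
    exact Nat.eq_of_mul_eq_mul_right (pow_pos hp.pos j) h1
  have hNpos : 0 < N := by rw [hN]; exact pow_pos hp.pos _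
  have hRQ : R ≤ Q := hχ.le
  have hZmem : ∀ z, z ∈ Z ↔ z ∈ Q ∧ ∀ w ∈ Q, w * z = z * w := by
    intro z
    rw [hZ, Subgroup.mem_inf, Subgroup.mem_centralizer_iff]
    exact Iff.rfl
  have hZR : Z ≤ R := fun z hz =>
    hχ.center_le z ((hZmem z).1 hz).1 (fun w hw => (((hZmem z).1 hz).2 w hw).symm)
  have hZQ : Z ≤ Q := inf_le_left
  have hc4 : 4 ≤ (a - 1) ^ 2 := by
    have h2 : 2 ≤ a - 1 := by omega
    nlinarith
  have hRneQ : R ≠ Q := by
    intro h
    rw [h] at hcard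
    have hpos : 0 < Nat.card Q := Nat.card_pos
    nlinarith
  have hnab : ¬ ∀ x ∈ Q, ∀ y ∈ Q, x * y = y * x := by
    intro hab
    apply hRneQ
    apply le_antisymm hRQ
    intro x hx
    rw [hχ.hR]
    refine ⟨hx, fun y hy => ?_⟩
    have h1 : ⁅x, y⁆ = 1 := by
      rw [commutatorElement_eq_one_iff_mul_comm]; exact hab x hx y hy
    rw [h1]; exact hχ.h1
  obtain ⟨m, hm0, hQm, hdvd⟩ := hmin.card_center hnab
  obtain ⟨t, ht⟩ := Subgroup.card_dvd_of_le hZR
  have hZpos : 0 < Nat.card Z := Nat.card_pos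
  have h1 : (a - 1) ^ 2 * t = q ^ m := by
    have h2 : (a - 1) ^ 2 * t * Nat.card Z = q ^ m * Nat.card Z := by
      rw [← hQm, hcard, ht]; ring
    exact Nat.eq_of_mul_eq_mul_right hZpos h2
  have h1' : (a - 1) * ((a - 1) * t) = q ^ m := by rw [← h1]; ring
  obtain ⟨d, hd, had⟩ := (Nat.dvd_prime_pow hq).1 (Dvd.intro _ h1')
  have hc : (a - 1) ^ 2 = q ^ (2 * d) := by rw [had, ← pow_mul, mul_comm]
  have haq : q ^ d + 1 = p ^ j := by rw [← had, ← haj]; omega
  have hstar : ((a - 1) ^ 2) ^ N ≤ q ^ m := by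
    rw [hc, hN]
    exact gross_nt hp hp2 hq hj0 haq hj hm0 hdvd
  -- conjugation by powers of φ
  have hpowmem : ∀ i : ℕ, φ ^ i ∈ Subgroup.zpowers φ := fun i => Subgroup.npow_mem_zpowers φ i
  have hnQ : ∀ s : Γ, s ∈ Subgroup.zpowers φ → ∀ x ∈ Q, s * x * s⁻¹ ∈ Q :=
    fun s hs => hmin.zpow_norm hs
  have hnQ' : ∀ s : Γ, s ∈ Subgroup.zpowers φ → ∀ x ∈ Q, s⁻¹ * x * s ∈ Q := by
    intro s hs x hx
    have h2 := hmin.zpow_norm (Subgroup.inv_mem _ hs) x hx
    rwa [inv_inv] at h2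
  have hnZ' : ∀ s : Γ, s ∈ Subgroup.zpowers φ → ∀ z ∈ Z, s⁻¹ * z * s ∈ Z := by
    intro s hs z hz
    rw [hZmem] at hz ⊢
    refine ⟨hnQ' s hs z hz.1, ?_⟩
    intro w hw
    have h2 := hz.2 (s * w * s⁻¹) (hnQ s hs w hw)
    calc w * (s⁻¹ * z * s) = s⁻¹ * ((s * w * s⁻¹) * z) * s := by group
      _ = s⁻¹ * (z * (s * w * s⁻¹)) * s := by rw [h2]
      _ = s⁻¹ * z * s * w := by group
  have hRnorm : ∀ g ∈ Q, ∀ x ∈ R, g * x * g⁻¹ ∈ R := by
    intro g hg x hx
    have h2 : g * x * g⁻¹ = ⁅g, x⁆ * x := by rw [commutatorElement_def]; group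
    rw [h2]
    exact R.mul_mem (hZR (hmin.comm_mem_center hg (hRQ hx))) hx
  have hNR : ∀ x ∈ R, φ ^ N * x * (φ ^ N)⁻¹ ∈ R := hχ.norm hmin (hpowmem N) hinv
  -- the conjugates of R
  set Rc : ℕ → Subgroup Γ := fun i => cjs R (φ ^ i) with hRc
  have hRc_mem : ∀ i x, x ∈ Rc i ↔ (φ ^ i)⁻¹ * x * φ ^ i ∈ R := fun i x => mem_cjs R (φ ^ i) x
  have hRc0 : Rc 0 = R := by
    ext x
    rw [hRc_mem]
    simp
  have hRc_le : ∀ i, Rc i ≤ Q := by
    intro i x hx
    rw [hRc_mem] at hx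
    have h2 := hnQ (φ ^ i) (hpowmem i) _ (hRQ hx)
    have e : φ ^ i * ((φ ^ i)⁻¹ * x * φ ^ i) * (φ ^ i)⁻¹ = x := by group
    rwa [e] at h2
  have hZ_le_Rc : ∀ i, Z ≤ Rc i := by
    intro i z hz
    rw [hRc_mem]
    exact hZR (hnZ' (φ ^ i) (hpowmem i) z hz)
  have hRc_rel : ∀ i, (Rc i).relIndex Q = (a - 1) ^ 2 := by
    intro i
    apply relIndex_eq_of_card _ _ (hRc_le i)
    rw [hcard]
    congr 1
    exact (card_cjs R (φ ^ i)).symm
  have hRc_normal : ∀ i, ∀ g ∈ Q, ∀ x ∈ Rc i, g * x * g⁻¹ ∈ Rc i := by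
    intro i g hg x hx
    rw [hRc_mem] at hx ⊢
    have h2 := hRnorm _ (hnQ' (φ ^ i) (hpowmem i) g hg) _ hx
    have e : (φ ^ i)⁻¹ * g * φ ^ i * ((φ ^ i)⁻¹ * x * φ ^ i) * ((φ ^ i)⁻¹ * g * φ ^ i)⁻¹
        = (φ ^ i)⁻¹ * (g * x * g⁻¹) * φ ^ i := by group
    rwa [e] at h2
  have hRc_succ : ∀ i, ∀ x ∈ Rc i, φ * x * φ⁻¹ ∈ Rc (i + 1) := by
    intro i x hx
    rw [hRc_mem] at hx ⊢
    have e : (φ ^ (i + 1))⁻¹ * (φ * x * φ⁻¹) * φ ^ (i + 1) = (φ ^ i)⁻¹ * x * φ ^ i := by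
      rw [pow_succ]; group
    rwa [e]
  have hRcN : Rc N ≤ R := by
    intro x hx
    rw [hRc_mem] at hx
    have h2 := hNR _ hx
    have e : φ ^ N * ((φ ^ N)⁻¹ * x * φ ^ N) * (φ ^ N)⁻¹ = x := by group
    rwa [e] at h2
  -- the intersection J of the conjugates
  set J : Subgroup Γ := ⨅ i : Fin N, Rc i with hJ
  have hJ_mem : ∀ x, x ∈ J ↔ ∀ i, i < N → x ∈ Rc i := by
    intro x
    rw [hJ, Subgroup.mem_iInf]
    constructor
    · intro h i hi; exact h ⟨i, hi⟩
    · intro h i; exact h i.1 i.2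
  have hJR : J ≤ R := by
    intro x hx
    have h2 := (hJ_mem x).1 hx 0 hNpos
    rwa [hRc0] at h2
  have hJQ : J ≤ Q := hJR.trans hRQ
  have hJne : J ≠ Q := by
    intro h
    apply hRneQ
    exact le_antisymm hRQ (h ▸ hJR)
  have hJphi : ∀ x ∈ J, φ * x * φ⁻¹ ∈ J := by
    intro x hx
    rw [hJ_mem] at hx ⊢
    intro i hi
    rcases Nat.eq_zero_or_pos i with h0 | h0
    · subst h0
      rw [hRc0]
      apply hRcN
      have h2 := hRc_succ (N - 1) x (hx (N - 1) (by omega))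
      rwa [Nat.sub_add_cancel hNpos] at h2
    · have h2 := hRc_succ (i - 1) x (hx (i - 1) (by omega))
      rwa [Nat.sub_add_cancel h0] at h2
  have hJnorm : ∀ g ∈ Q, ∀ y ∈ J, g * y * g⁻¹ ∈ J := by
    intro g hg y hy
    rw [hJ_mem] at hy ⊢
    intro i hi
    exact hRc_normal i g hg y (hy i hi)
  have hJZ : J ≤ Z := by
    intro y hy
    have h2 := hmin.central J hJQ hJne hJphi hJnorm y hy
    rw [hZmem]
    exact ⟨hJQ hy, fun w hw => h2 w hw⟩
  -- the intersection T of the conjugates R_1, ..., R_{N-1}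
  set T : Subgroup Γ := ⨅ i : Fin (N - 1), Rc (i + 1) with hT
  have hT_mem : ∀ x, x ∈ T ↔ ∀ i, 0 < i → i < N → x ∈ Rc i := by
    intro x
    rw [hT, Subgroup.mem_iInf]
    constructor
    · intro h i hi0 hi
      have h2 := h ⟨i - 1, by omega⟩
      have e : (i - 1) + 1 = i := Nat.sub_add_cancel hi0
      simp only [] at h2
      rwa [e] at h2
    · intro h i
      exact h (i + 1) (Nat.succ_pos _) (by have := i.2; omega)
  have hT_rel : T.relIndex Q ≤ ((a - 1) ^ 2) ^ (N - 1) := by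
    have h2 := Subgroup.relIndex_iInf_le (L := Q) (fun i : Fin (N - 1) => Rc (i + 1))
    have h3 : ∏ i : Fin (N - 1), (Rc (i + 1)).relIndex Q = ((a - 1) ^ 2) ^ (N - 1) := by
      have h4 : ∏ i : Fin (N - 1), (Rc (i + 1)).relIndex Q
          = ∏ _i : Fin (N - 1), (a - 1) ^ 2 :=
        Finset.prod_congr rfl (fun i _ => hRc_rel (i + 1))
      rw [h4, Finset.prod_const, Finset.card_univ, Fintype.card_fin]
    rw [h3] at h2
    exact h2
  have hZ_rel : Z.relIndex Q = q ^ m := relIndex_eq_of_card Z Q hZQ (q ^ m) hQm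
  -- an element of T ∩ Q outside R
  have hex : ∃ x ∈ Q, x ∈ T ∧ x ∉ R := by
    by_contra hcon
    push Not at hcon
    have hTZ : T ⊓ Q ≤ Z := by
      intro x hx
      apply hJZ
      rw [hJ_mem]
      intro i hi
      rcases Nat.eq_zero_or_pos i with h0 | h0
      · subst h0
        rw [hRc0]
        exact hcon x hx.2 hx.1
      · exact (hT_mem x).1 hx.1 i h0 hi
    have hne : (T ⊓ Q).relIndex Q ≠ 0 := by
      intro h0
      have h5 := card_inf_mul_relIndex (T ⊓ Q) Q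
      rw [h0, mul_zero] at h5
      exact (Nat.card_pos (α := Q)).ne h5
    have h2 : Z.relIndex Q ≤ (T ⊓ Q).relIndex Q := Subgroup.relIndex_le_of_le_left hTZ hne
    rw [Subgroup.inf_relIndex_right, hZ_rel] at h2
    have h3 : ((a - 1) ^ 2) ^ (N - 1) < ((a - 1) ^ 2) ^ N :=
      Nat.pow_lt_pow_right (by omega) (by omega)
    omega
  obtain ⟨x, hxQ, hxT, hxR⟩ := hex
  have hy : ∃ y ∈ Q, χ ⁅x, y⁆ ≠ 1 := by
    by_contra hcon
    push Not at hcon
    exact hxR ((hχ.hR x).2 ⟨hxQ, hcon⟩)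
  obtain ⟨y, hyQ, hχz⟩ := hy
  set z : Γ := ⁅x, y⁆ with hz
  have hzZ : z ∈ Z := hmin.comm_mem_center hxQ hyQ
  set f : ℕ → Γ := fun i => (φ ^ i)⁻¹ * z * φ ^ i with hf
  have hfZ : ∀ i, f i ∈ Z := fun i => hnZ' (φ ^ i) (hpowmem i) z hzZ
  have hf0 : f 0 = z := by simp [hf]
  have hf_one : ∀ i, 0 < i → i < N → χ (f i) = 1 := by
    intro i hi0 hi
    have h2 := (hT_mem x).1 hxT i hi0 hi
    rw [hRc_mem] at h2
    have h3 := ((hχ.hR _).1 h2).2 _ (hnQ' (φ ^ i) (hpowmem i) y hyQ)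
    have e : ⁅(φ ^ i)⁻¹ * x * φ ^ i, (φ ^ i)⁻¹ * y * φ ^ i⁆ = f i := by
      rw [hf, hz, commutatorElement_def, commutatorElement_def]; group
    rwa [e] at h3
  have hf_per : ∀ i, χ (f (i + N)) = χ (f i) := by
    intro i
    have h2 := hinv (f (i + N)) (hfZ (i + N))
    have e : φ ^ N * f (i + N) * (φ ^ N)⁻¹ = f i := by
      simp only [hf]; rw [pow_add]; group
    rw [e] at h2
    exact h2.symm
  -- the product of all conjugates
  set M : ℕ := p ^ (n + 1) with hM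
  have hPZ : gprod f M ∈ Z := gprod_mem f Z hfZ M
  have hPQ : gprod f M ∈ Q := hZQ hPZ
  have hfM : f M = z := by
    simp only [hf]
    rw [hM, hmin.hφ]; group
  have hconj : φ⁻¹ * gprod f M * φ = gprod (fun i => f (i + 1)) M := by
    have h2 := gprod_conj f φ⁻¹ M
    rw [inv_inv] at h2
    rw [h2]
    congr 1
    funext i
    simp only [hf]
    rw [pow_succ]; group
  have hsh : gprod f M * z = z * gprod (fun i => f (i + 1)) M := by
    have h2 := gprod_shift f M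
    rw [hf0] at h2
    rw [← h2]
    show gprod f M * z = gprod f M * f M
    rw [hfM]
  have hcz : gprod f M * z = z * gprod f M := ((hZmem z).1 hzZ).2 _ hPQ
  have hPinv : φ⁻¹ * gprod f M * φ = gprod f M := by
    rw [hconj]
    rw [hcz] at hsh
    exact (mul_left_cancel hsh).symm
  have hPcomm : φ * gprod f M = gprod f M * φ := by
    calc φ * gprod f M = φ * (φ⁻¹ * gprod f M * φ) := by rw [hPinv]
      _ = gprod f M * φ := by group
  have hP1 : gprod f M = 1 := hmin.hCQ _ hPQ hPcomm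
  have hprod : χ z ^ a = 1 := by
    have h2 : χ (gprod f M) = ∏ i ∈ Finset.range (N * a), χ (f i) := by
      rw [hNa]
      exact gprod_chi χ Z hχ.h1 hχ.hmul f hfZ M
    rw [hP1, hχ.h1, prod_periodic (fun i => χ (f i)) N hNpos hf_per hf_one a, hf0] at h2
    exact h2.symm
  -- z has q-power order
  obtain ⟨e, he⟩ := hmin.hQ ⟨z, hZQ hzZ⟩
  have he' : z ^ q ^ e = 1 := by
    have := congrArg Subtype.val he
    simpa using this
  have hprod2 : χ z ^ q ^ e = 1 := by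
    rw [← chi_pow χ Z hχ.h1 hχ.hmul z hzZ, he', hχ.h1]
  have hcop : Nat.Coprime a (q ^ e) := by
    rw [haj]
    exact Nat.Coprime.pow _ _ ((Nat.coprime_primes hp hq).2 (Ne.symm hqp))
  have hfin : χ z ^ (Nat.gcd a (q ^ e)) = 1 := pow_gcd_eq_one.2 ⟨hprod, hprod2⟩
  rw [hcop, pow_one] at hfin
  exact hχz hfin

end Cfsg.Agent.Lib.Helper55.GrossFinal
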