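import Mathlib
import Cfsg.Prelude.Def_Local
import Cfsg.Agent.S3783
import Cfsg.Agent.Lib.Helper81.PSolv2

/-!
# S3789 piece INV (for helper40): an `R`-invariant `q`-subgroup of `O_{p'}(H)` not centralized
by a nontrivial element of the `p`-subgroup `R`
-/

set_option autoImplicit false

namespace Cfsg.Agent.Lib.Helper55

universe u

open Cfsg
open scoped Pointwise

/-- a `p`-subgroup normalizes some Sylow `q`-subgroup of a normal `p'`-subgroup -/
theorem inv_sylow_of_pgroup {H : Type*} [Group H] [Finite H] (p : ℕ) [Fact p.Prime]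
    (N : Subgroup H) [N.Normal] (hpN : (Nat.card N).Coprime p) (R : Subgroup H)
    (hR : IsPGroup p R) (q : ℕ) [Fact q.Prime] :
    ∃ S : Subgroup H, S ≤ N ∧ Nat.card S = q ^ (Nat.card N).factorization q ∧
      ∀ r ∈ R, ∀ s ∈ S, r * s * r⁻¹ ∈ S := by
  have hp : p.Prime := Fact.out
  let _ : MulAction R (Sylow q N) :=
    MulAction.compHom (Sylow q N) ((MulAut.conjNormal (H := N)).comp R.subtype)
  have hcard : ¬ p ∣ Nat.card (Sylow q N) := by
    obtain ⟨Q₀⟩ : Nonempty (Sylow q N) := inferInstance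
    intro h
    exact (Nat.Prime.coprime_iff_not_dvd hp).1 hpN.symm
      (h.trans ((Sylow.card_dvd_index Q₀).trans (Subgroup.index_dvd_card _)))
  obtain ⟨Q, hQ⟩ := hR.nonempty_fixed_point_of_prime_not_dvd_card (Sylow q N) hcard
  refine ⟨(Q : Subgroup N).map N.subtype, ?_, ?_, ?_⟩
  · rintro _ ⟨t, -, rfl⟩
    exact t.2
  · rw [← Q.card_eq_multiplicity]
    exact (Nat.card_congr (Subgroup.equivMapOfInjective _ _ N.subtype_injective).toEquiv).symm
  · rintro r hr _ ⟨t, ht, rfl⟩
    have h1 : (MulAut.conjNormal r : MulAut N) • Q = Q := hQ ⟨r, hr⟩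
    have h2 : (MulAut.conjNormal r : MulAut N) • t ∈
        (MulAut.conjNormal r : MulAut N) • (Q : Subgroup N) :=
      Subgroup.smul_mem_pointwise_smul _ _ _ ht
    rw [← Sylow.pointwise_smul_def, h1] at h2
    refine ⟨_, h2, ?_⟩
    simp [MulAut.smul_def, MulAut.conjNormal_apply]

theorem exists_inv_qsub {H : Type u} [Group H] [Finite H] {p : ℕ} [Fact p.Prime]
    (hsol : IsPSolvable p H) (hOp : pCore p H = ⊥) (R : Subgroup H) (hR : IsPGroup p R)
    (x : H) (hxR : x ∈ R) (hx1 : x ≠ 1) :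
    ∃ (q : ℕ) (Q : Subgroup H), q.Prime ∧ q ≠ p ∧ IsPGroup q Q ∧
      (∀ r ∈ R, ∀ u ∈ Q, r * u * r⁻¹ ∈ Q) ∧ ∃ u ∈ Q, x * u ≠ u * x := by
  have hp : p.Prime := Fact.out
  have hKn : (pPrimeCore p H).Normal := Cfsg.Agent.Lib.Helper81.pPrimeCore_normal p
  have hKc : (Nat.card (pPrimeCore p H)).Coprime p :=
    Cfsg.Agent.Lib.Helper81.pPrimeCore_coprime p
  have hcent : Subgroup.centralizer (pPrimeCore p H : Set H) ≤ pPrimeCore p H :=
    Cfsg.Agent.S3783.cent_pPrimeCore_le hsol hOp
  -- `x ∉ K`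
  have hxK : x ∉ pPrimeCore p H := by
    intro hx
    obtain ⟨k, hk⟩ := hR ⟨x, hxR⟩
    have hk' : x ^ p ^ k = 1 := by
      have := congrArg Subtype.val hk
      simpa using this
    have h1 : orderOf x ∣ p ^ k := orderOf_dvd_of_pow_eq_one hk'
    have h2 : orderOf x ∣ Nat.card (pPrimeCore p H) := by
      have h := orderOf_dvd_natCard (⟨x, hx⟩ : pPrimeCore p H)
      rwa [Subgroup.orderOf_mk] at h
    have h3 : orderOf x = 1 :=
      Nat.Coprime.eq_one_of_dvd (Nat.Coprime.coprime_dvd_left h2 (Nat.Coprime.pow_right k hKc)) h1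
    exact hx1 (orderOf_eq_one_iff.mp h3)
  -- some element of `K` does not commute with `x`
  have hex : ∃ k ∈ pPrimeCore p H, x * k ≠ k * x := by
    by_contra hcon
    push Not at hcon
    apply hxK
    apply hcent
    rw [Subgroup.mem_centralizer_iff]
    intro k hk
    exact (hcon k hk).symm
  obtain ⟨k, hkK, hkx⟩ := hex
  by_contra hcon
  push Not at hcon
  have hK0 : Nat.card (pPrimeCore p H) ≠ 0 := Nat.card_pos.ne'
  have hC0 : Nat.card ↥(pPrimeCore p H ⊓ Subgroup.centralizer ({x} : Set H)) ≠ 0 :=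
    Nat.card_pos.ne'
  have hCK : Nat.card (pPrimeCore p H) ∣
      Nat.card ↥(pPrimeCore p H ⊓ Subgroup.centralizer ({x} : Set H)) := by
    rw [← Nat.factorization_le_iff_dvd hK0 hC0]
    intro q
    by_cases hq : q.Prime
    · have : Fact q.Prime := ⟨hq⟩
      obtain ⟨S, hSK, hScard, hSR⟩ := inv_sylow_of_pgroup p (pPrimeCore p H) hKc R hR q
      by_cases hv : (Nat.card (pPrimeCore p H)).factorization q = 0
      · rw [hv]
        exact Nat.zero_le _
      · have hqp : q ≠ p := by
          rintro rfl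
          have hdvd : q ∣ Nat.card (pPrimeCore q H) :=
            Nat.dvd_of_factorization_pos hv
          exact (Nat.Prime.coprime_iff_not_dvd hq).1 hKc.symm hdvd
        have hSq : IsPGroup q S := IsPGroup.of_card hScard
        have hSx : ∀ u ∈ S, x * u = u * x := hcon q S hq hqp hSq hSR
        have hSC : S ≤ pPrimeCore p H ⊓ Subgroup.centralizer ({x} : Set H) := by
          intro u hu
          refine Subgroup.mem_inf.mpr ⟨hSK hu, ?_⟩
          rw [Subgroup.mem_centralizer_iff]
          intro y hy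
          rw [Set.mem_singleton_iff] at hy
          subst hy
          exact hSx u hu
        have hdvd : q ^ (Nat.card (pPrimeCore p H)).factorization q ∣
            Nat.card ↥(pPrimeCore p H ⊓ Subgroup.centralizer ({x} : Set H)) := by
          rw [← hScard]
          exact Subgroup.card_dvd_of_le hSC
        exact (hq.pow_dvd_iff_le_factorization hC0).mp hdvd
    · rw [Nat.factorization_eq_zero_of_not_prime _ hq]
      exact Nat.zero_le _
  have hCeq : pPrimeCore p H ⊓ Subgroup.centralizer ({x} : Set H) = pPrimeCore p H :=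
    Subgroup.eq_of_le_of_card_ge inf_le_left (Nat.le_of_dvd Nat.card_pos hCK)
  have hkC : k ∈ pPrimeCore p H ⊓ Subgroup.centralizer ({x} : Set H) := by
    rw [hCeq]
    exact hkK
  have hkc := (Subgroup.mem_inf.mp hkC).2
  rw [Subgroup.mem_centralizer_iff] at hkc
  exact hkx (hkc x rfl)

end Cfsg.Agent.Lib.Helper55
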