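import Mathlib
import Cfsg.Agent.Lib.Helper40.PLenDefs

/-!
# S3789 piece RSTEP (for helper40): `R` centralizes `Y = ⁅Q₀, Q₀⁆`
-/

set_option autoImplicit false

namespace Cfsg.Agent.Lib.Helper55

universe u

open Cfsg Cfsg.Agent.Lib.Helper40.PLen
open scoped commutatorElement

theorem r_step (hq1 : Q1Stmt.{u} 3) {A : Type u} [CommGroup A] [Finite A] {H : Type u} [Group H]
    [Finite H] (hA : ∀ v : A, v ^ 3 = 1) (θ : H →* MulAut A) (hθ : ∀ g : H, θ g = 1 → g = 1)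
    (R : Subgroup H) (x : H) (hxR : x ∈ R) (hxc : ∀ r ∈ R, r * x = x * r)
    (hqR : ∀ r ∈ R, ∀ v : A,
      θ r (θ r (θ x v / v) / (θ x v / v)) = θ r (θ x v / v) / (θ x v / v))
    (Q₀ : Subgroup H) (hQ2 : IsPGroup 2 Q₀) (hRQ : ∀ r ∈ R, ∀ u ∈ Q₀, r * u * r⁻¹ ∈ Q₀)
    (hgen : ⁅Q₀, Subgroup.zpowers x⁆ = Q₀)
    (hYc : ∀ y ∈ ⁅Q₀, Q₀⁆, ∀ u ∈ Q₀, y * u = u * y)
    (hYx : ∀ y ∈ ⁅Q₀, Q₀⁆, x * y = y * x)
    (hsq : ∀ a ∈ Q₀, ∀ u ∈ Q₀, a * a * u = u * (a * a)) :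
    ∀ r ∈ R, ∀ y ∈ ⁅Q₀, Q₀⁆, r * y = y * r := by
  -- basic facts on `θ`
  have hθmul : ∀ (g h : H) (v : A), θ (g * h) v = θ g (θ h v) := fun g h v => by
    rw [map_mul]; rfl
  have hθinv' : ∀ (g : H) (v : A), θ g (θ g⁻¹ v) = v := fun g v => by
    rw [← hθmul, mul_inv_cancel, map_one]; rfl
  have hθinv : ∀ (g : H) (v : A), θ g⁻¹ (θ g v) = v := fun g v => by
    rw [← hθmul, inv_mul_cancel, map_one]; rfl
  have hcomm : ∀ (g h : H), g * h = h * g → ∀ v, θ g (θ h v) = θ h (θ g v) := fun g h e v => by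
    rw [← hθmul, e, hθmul]
  have hD : ∀ (g h : H), g * h = h * g → ∀ v, θ g (θ h v / v) = θ h (θ g v) / θ g v :=
    fun g h e v => by rw [map_div, hcomm g h e]
  -- facts on `Y = ⁅Q₀, Q₀⁆`
  have hYQ : ⁅Q₀, Q₀⁆ ≤ Q₀ := by
    rw [Subgroup.commutator_le]
    intro a ha b hb
    rw [commutatorElement_def]
    exact Q₀.mul_mem (Q₀.mul_mem (Q₀.mul_mem ha hb) (Q₀.inv_mem ha)) (Q₀.inv_mem hb)
  have hYcomm : ∀ y₁ ∈ ⁅Q₀, Q₀⁆, ∀ y₂ ∈ ⁅Q₀, Q₀⁆, y₁ * y₂ = y₂ * y₁ :=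
    fun y₁ h₁ y₂ h₂ => hYc y₁ h₁ y₂ (hYQ h₂)
  have hYsq : ∀ y ∈ ⁅Q₀, Q₀⁆, y * y = 1 := by
    let M : Subgroup H :=
      { carrier := {y | y ∈ Q₀ ∧ (∀ u ∈ Q₀, y * u = u * y) ∧ y * y = 1}
        one_mem' := ⟨Q₀.one_mem, fun u _ => by rw [one_mul, mul_one], by rw [mul_one]⟩
        mul_mem' := by
          rintro y₁ y₂ ⟨h1, c1, s1⟩ ⟨h2, c2, s2⟩
          refine ⟨Q₀.mul_mem h1 h2, fun u hu => ?_, ?_⟩
          · rw [mul_assoc, c2 u hu, ← mul_assoc, c1 u hu, mul_assoc]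
          · have e : y₂ * y₁ = y₁ * y₂ := c2 y₁ h1
            calc y₁ * y₂ * (y₁ * y₂) = y₁ * (y₂ * y₁) * y₂ := by group
              _ = y₁ * (y₁ * y₂) * y₂ := by rw [e]
              _ = (y₁ * y₁) * (y₂ * y₂) := by group
              _ = 1 := by rw [s1, s2, mul_one]
        inv_mem' := by
          rintro y ⟨h1, c1, s1⟩
          refine ⟨Q₀.inv_mem h1, fun u hu => ?_, ?_⟩
          · have e := c1 u hu
            calc y⁻¹ * u = y⁻¹ * (u * y) * y⁻¹ := by group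
              _ = y⁻¹ * (y * u) * y⁻¹ := by rw [e]
              _ = u * y⁻¹ := by group
          · calc y⁻¹ * y⁻¹ = (y * y)⁻¹ := by group
              _ = 1 := by rw [s1, inv_one] }
    have hle : ⁅Q₀, Q₀⁆ ≤ M := by
      rw [Subgroup.commutator_le]
      intro a ha b hb
      have hcY : ⁅a, b⁆ ∈ ⁅Q₀, Q₀⁆ := Subgroup.commutator_mem_commutator ha hb
      have hcen := hYc _ hcY
      refine ⟨hYQ hcY, hcen, ?_⟩
      have h1 : ⁅a, b⁆ * a = a * ⁅a, b⁆ := hcen a ha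
      have h2 : a * a * b = b * (a * a) := hsq a ha b hb
      rw [commutatorElement_def] at h1 ⊢
      calc a * b * a⁻¹ * b⁻¹ * (a * b * a⁻¹ * b⁻¹)
          = (a * b * a⁻¹ * b⁻¹ * a) * (b * a⁻¹ * b⁻¹) := by group
        _ = (a * (a * b * a⁻¹ * b⁻¹)) * (b * a⁻¹ * b⁻¹) := by rw [h1]
        _ = (a * a * b) * (a⁻¹ * b⁻¹ * b * a⁻¹ * b⁻¹) := by group
        _ = (b * (a * a)) * (a⁻¹ * b⁻¹ * b * a⁻¹ * b⁻¹) := by rw [h2]
        _ = 1 := by group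
    intro y hy
    exact (hle hy).2.2
  have hRY : ∀ r ∈ R, ∀ y ∈ ⁅Q₀, Q₀⁆, r * y * r⁻¹ ∈ ⁅Q₀, Q₀⁆ := by
    intro r hr
    have hle : ⁅Q₀, Q₀⁆ ≤ (⁅Q₀, Q₀⁆ : Subgroup H).comap (MulAut.conj r).toMonoidHom := by
      rw [Subgroup.commutator_le]
      intro a ha b hb
      rw [Subgroup.mem_comap]
      have e : (MulAut.conj r).toMonoidHom ⁅a, b⁆ = ⁅r * a * r⁻¹, r * b * r⁻¹⁆ := by
        rw [map_commutatorElement]; rfl
      rw [e]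
      exact Subgroup.commutator_mem_commutator (hRQ r hr a ha) (hRQ r hr b hb)
    intro y hy
    exact hle hy
  intro r hr y hy
  -- invariance of `U = range (v ↦ θ x v / v)`
  have hUr : ∀ s ∈ R, ∀ v, ∃ v', θ s (θ x v / v) = θ x v' / v' :=
    fun s hs v => ⟨θ s v, hD s x (hxc s hs) v⟩
  have hUy : ∀ e ∈ ⁅Q₀, Q₀⁆, ∀ v, ∃ v', θ e (θ x v / v) = θ x v' / v' :=
    fun e he v => ⟨θ e v, hD e x (hYx e he).symm v⟩
  let Dx : A →* A :=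
    { toFun := fun v => θ x v / v
      map_one' := by simp
      map_mul' := fun a b => by rw [map_mul, mul_div_mul_comm] }
  have hK1 : ∀ e ∈ ⁅Q₀, Q₀⁆, ∀ u ∈ Dx.range, θ r (θ e u) = θ e (θ r u) := by
    refine hq1 A H θ Dx.range ⁅Q₀, Q₀⁆ 2 r hA Nat.prime_two (by decide) (hQ2.to_le hYQ)
      (hRY r hr) ?_ ?_ ?_ ?_
    · rintro _ ⟨v, rfl⟩
      obtain ⟨v', hv'⟩ := hUr r hr v
      exact ⟨v', hv'.symm⟩
    · rintro e he _ ⟨v, rfl⟩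
      obtain ⟨v', hv'⟩ := hUy e he v
      exact ⟨v', hv'.symm⟩
    · rintro _ ⟨v, rfl⟩
      exact hqR r hr v
    · intro _ e₁ he₁ e₂ he₂ u _
      exact hcomm e₁ e₂ (hYcomm e₁ he₁ e₂ he₂) u
  -- the commutator `y₁ = r y r⁻¹ y⁻¹`
  have hy₁Y : r * y * r⁻¹ * y⁻¹ ∈ ⁅Q₀, Q₀⁆ :=
    Subgroup.mul_mem _ (hRY r hr y hy) (Subgroup.inv_mem _ hy)
  generalize hy₁ : r * y * r⁻¹ * y⁻¹ = y₁ at hy₁Y
  have hfixU : ∀ v, θ y₁ (θ x v / v) = θ x v / v := by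
    intro v
    obtain ⟨v₁, hv₁⟩ := hUy y⁻¹ (Subgroup.inv_mem _ hy) v
    obtain ⟨v₂, hv₂⟩ := hUr r⁻¹ (R.inv_mem hr) v₁
    have e1 : θ r (θ y (θ x v₂ / v₂)) = θ y (θ r (θ x v₂ / v₂)) := hK1 y hy _ ⟨v₂, rfl⟩
    rw [← hy₁, hθmul, hθmul, hθmul, hv₁, hv₂, e1, ← hv₂, hθinv', ← hv₁, hθinv']
  have hxy₁ : x * y₁ = y₁ * x := hYx y₁ hy₁Y
  have hfix2 : ∀ v, θ x (θ y₁ v / v) = θ y₁ v / v := by
    intro v
    have h1 := hfixU v
    rw [hD y₁ x hxy₁.symm v] at h1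
    rw [map_div]
    rw [div_eq_div_iff_mul_eq_mul] at h1 ⊢
    rw [h1, mul_comm]
  -- the pointwise fixer of `U₁ = range (v ↦ θ y₁ v / v)`
  let Fx : Subgroup H :=
    { carrier := {g | ∀ v, θ g (θ y₁ v / v) = θ y₁ v / v}
      one_mem' := fun v => by rw [map_one]; rfl
      mul_mem' := by
        intro g h hg hh v
        rw [hθmul, hh v, hg v]
      inv_mem' := by
        intro g hg v
        have h := hθinv g (θ y₁ v / v)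
        rw [hg v] at h
        exact h }
  have hxF : Subgroup.zpowers x ≤ Fx := by
    rw [Subgroup.zpowers_le]
    exact hfix2
  have hQ₀U₁ : ∀ u ∈ Q₀, ∀ v, ∃ v', θ u (θ y₁ v / v) = θ y₁ v' / v' :=
    fun u hu v => ⟨θ u v, hD u y₁ (hYc y₁ hy₁Y u hu).symm v⟩
  have hQF : Q₀ ≤ Fx := by
    have hle : ⁅Q₀, Subgroup.zpowers x⁆ ≤ Fx := by
      rw [Subgroup.commutator_le]
      intro u hu g hg
      have hgF : g ∈ Fx := hxF hg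
      show ∀ v, θ ⁅u, g⁆ (θ y₁ v / v) = θ y₁ v / v
      intro v
      obtain ⟨v', hv'⟩ := hQ₀U₁ u⁻¹ (Q₀.inv_mem hu) v
      have hgi : θ g⁻¹ (θ y₁ v / v) = θ y₁ v / v := (Fx.inv_mem hgF) v
      have hg' : θ g (θ y₁ v' / v') = θ y₁ v' / v' := hgF v'
      rw [commutatorElement_def, hθmul, hθmul, hθmul, hgi, hv', hg', ← hv', hθinv']
    rwa [hgen] at hle
  have hy₁F : y₁ ∈ Fx := hQF (hYQ hy₁Y)
  have hy₁sq : y₁ * y₁ = 1 := hYsq y₁ hy₁Y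
  have hθy₁ : θ y₁ = 1 := by
    ext v
    have h1 : θ y₁ (θ y₁ v / v) = θ y₁ v / v := hy₁F v
    have h2 : θ y₁ (θ y₁ v) = v := by
      rw [← hθmul, hy₁sq, map_one]; rfl
    rw [map_div, h2] at h1
    have h3 : (θ y₁ v / v) * (θ y₁ v / v) = 1 := by
      have e : (θ y₁ v / v)⁻¹ = θ y₁ v / v := by rw [inv_div]; exact h1
      calc (θ y₁ v / v) * (θ y₁ v / v) = (θ y₁ v / v)⁻¹ * (θ y₁ v / v) := by rw [e]
        _ = 1 := inv_mul_cancel _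
    have h4 : (θ y₁ v / v) ^ 3 = 1 := hA _
    have h5 : θ y₁ v / v = 1 := by
      have e : (θ y₁ v / v) ^ 3 = (θ y₁ v / v) * (θ y₁ v / v) * (θ y₁ v / v) := by
        rw [pow_succ, pow_two]
      rw [e, h3, one_mul] at h4
      exact h4
    show θ y₁ v = v
    exact div_eq_one.mp h5
  have hy₁1 : y₁ = 1 := hθ y₁ hθy₁
  rw [← hy₁] at hy₁1
  calc r * y = (r * y * r⁻¹ * y⁻¹) * (y * r) := by group
    _ = y * r := by rw [hy₁1, one_mul]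

end Cfsg.Agent.Lib.Helper55
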