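import Cfsg.Agent.Lib.Helper47.UniDefs

/-!
# S2676, piece CONSTLAYER (helper55): layers of a frame of constant size
-/

set_option autoImplicit false

namespace Cfsg.Agent.Lib.Helper55.Uni

open Cfsg.Agent.Lib.Helper47 Module

universe u

variable {F : Type u} [Field F]

-- PIECE CONSTLAYER
theorem nondeg_layer_const {κ : Type*} [Fintype κ] (G : κ → κ → F) (c : ℕ)
    (h : Nondeg (gForm G)) (j : ℕ) : Nondeg (layerForm (fun _ : κ => c) G j) := by
  intro v hv
  by_cases hj : c = j
  · subst hj
    let e : {i : κ // c = c} ≃ κ := Equiv.subtypeUnivEquiv (fun _ => rfl)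
    have key : ∀ w : {i : κ // c = c} → F,
        layerForm (fun _ : κ => c) G c v w = gForm G (v ∘ e.symm) (w ∘ e.symm) := by
      intro w
      unfold layerForm gForm
      refine Fintype.sum_equiv e _ _ (fun a => ?_)
      refine Fintype.sum_equiv e _ _ (fun b => ?_)
      simp only [Function.comp_apply, Equiv.symm_apply_apply]
      rfl
    have h0 : v ∘ e.symm = 0 := by
      refine h _ (fun y => ?_)
      have h1 := key (y ∘ e)
      have h2 : (y ∘ e) ∘ e.symm = y := by
        funext a
        simp only [Function.comp_apply, Equiv.apply_symm_apply]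
      rw [h2] at h1
      rw [← h1]
      exact hv _
    funext i
    have h3 := congrFun h0 (e i)
    simpa only [Function.comp_apply, Equiv.symm_apply_apply, Pi.zero_apply] using h3
  · funext i
    exact absurd i.2 hj

end Cfsg.Agent.Lib.Helper55.Uni
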