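import Cfsg.Agent.Lib.Helper55.QE
import Cfsg.Agent.Lib.Helper54.Amalgam2
import Mathlib

set_option autoImplicit false
open Cfsg
open scoped commutatorElement

namespace Cfsg.Agent.Lib.Helper55

section amalgam

variable {X : Type*} [Group X] {p : ℕ}

/-! ### generalities without finiteness -/

theorem normalizer_inf_le_normalizer_commutator' (A B : Subgroup X) :
    Subgroup.normalizer (A : Set X) ⊓ Subgroup.normalizer (B : Set X) ≤
      Subgroup.normalizer ((⁅A, B⁆ : Subgroup X) : Set X) := by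
  intro n hn
  have hA : Helper54.cj n A = A := Helper54.cj_eq_of_mem_normalizer hn.1
  have hB : Helper54.cj n B = B := Helper54.cj_eq_of_mem_normalizer hn.2
  apply Helper54.mem_normalizer_of_cj_eq
  show (⁅A, B⁆).map _ = _
  rw [Subgroup.map_commutator]
  show ⁅Helper54.cj n A, Helper54.cj n B⁆ = _
  rw [hA, hB]

/-- A finite `p`-group acts nilpotently on its subgroups. -/
theorem le_of_le_sup_commutator_pgroup [Fact p.Prime] {Q V W : Subgroup X} [Finite ↥Q]
    (hQ : IsPGroup p Q) (hVQ : V ≤ Q) (hWQ : W ≤ Q)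
    (hQW : Q ≤ Subgroup.normalizer (W : Set X)) (h : V ≤ W ⊔ ⁅V, Q⁆) : V ≤ W := by
  haveI : Group.IsNilpotent ↥Q := hQ.isNilpotent
  obtain ⟨n, hn⟩ := (Subgroup.isNilpotent_iff_lowerCentralSeries Q).mp inferInstance
  have hle : ∀ k : ℕ, Q.lowerCentralSeries k ≤ Q := by
    intro k
    induction k with
    | zero => exact le_rfl
    | succ k ih =>
      rw [Subgroup.lowerCentralSeries_succ]
      exact Helper56.commutator_le_of_le_normalizer' Q _ (ih.trans Subgroup.le_normalizer)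
  have hnorm : ∀ k : ℕ, Q ≤ Subgroup.normalizer ((Q.lowerCentralSeries (k + 1) : Subgroup X) : Set X) := by
    intro k
    rw [Subgroup.lowerCentralSeries_succ]
    exact Helper56.le_normalizer_commutator_right _ Q
  have key : ∀ k : ℕ, V ≤ W ⊔ Q.lowerCentralSeries k := by
    intro k
    induction k with
    | zero => exact hVQ.trans le_sup_right
    | succ k ih =>
      refine h.trans (sup_le le_sup_left ?_)
      refine (Subgroup.commutator_mono ih le_rfl).trans ?_
      rw [Subgroup.commutator_comm]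
      apply commutator_sup_le
      · exact le_trans (le_inf Subgroup.le_normalizer (hWQ.trans (hnorm k)))
          (Helper56.normalizer_inf_le_sup _ _)
      · exact le_trans (le_inf ((hle k).trans hQW) ((hle k).trans (hnorm k)))
          (Helper56.normalizer_inf_le_sup _ _)
      · exact (Helper56.commutator_le_of_le_normalizer' W Q hQW).trans le_sup_left
      · rw [Subgroup.commutator_comm, ← Subgroup.lowerCentralSeries_succ]; exact le_sup_right
  have h2 := key n
  rw [hn, sup_bot_eq] at h2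
  exact h2

theorem zOf_ne_bot [Fact p.Prime] {T : Subgroup X} [Finite ↥T] (hT : IsPGroup p T) (hT1 : T ≠ ⊥) :
    Helper54.zOf p T ≠ ⊥ := by
  haveI : Nontrivial ↥T := (Subgroup.nontrivial_iff_ne_bot T).mpr hT1
  haveI := hT.center_nontrivial
  obtain ⟨z, hz⟩ := exists_ne (1 : Subgroup.center ↥T)
  have hzT : ((z : ↥T) : X) ∈ T ⊓ Subgroup.centralizer (T : Set X) := by
    refine Subgroup.mem_inf.mpr ⟨(z : ↥T).2, ?_⟩
    rw [Subgroup.mem_centralizer_iff]
    intro t ht
    have h1 := Subgroup.mem_center_iff.mp z.2 ⟨t, ht⟩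
    exact congrArg Subtype.val h1
  have hz1 : ((z : ↥T) : X) ≠ 1 := by
    intro h0
    apply hz
    apply Subtype.ext
    apply Subtype.ext
    simpa using h0
  obtain ⟨y, hy, hyp, hy1⟩ := Helper54.exists_order_p_of_ne_one (hT.to_le inf_le_left) hzT hz1
  intro hbot
  have h2 : y ∈ Helper54.zOf p T := Subgroup.subset_closure ⟨hy, hyp⟩
  rw [hbot, Subgroup.mem_bot] at h2
  exact hy1 h2

/-! ### distance and the action on the coset graph -/

theorem cg_dist_smul_le (M₁ M₂ : Subgroup X) (hgen : M₁ ⊔ M₂ = ⊤) (g : X)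
    (a b : CosetVertex M₁ M₂) :
    (cosetGraph M₁ M₂).dist (g • a) (g • b) ≤ (cosetGraph M₁ M₂).dist a b := by
  have hconn := Helper54.cg_connected M₁ M₂ hgen
  obtain ⟨w, hw⟩ := hconn.exists_walk_length_eq_dist a b
  have h1 := SimpleGraph.dist_le (w.map
    (⟨fun v => g • v, fun h => Helper54.cg_adj_smul M₁ M₂ g h⟩ : cosetGraph M₁ M₂ →g cosetGraph M₁ M₂))
  rw [SimpleGraph.Walk.length_map, hw] at h1
  exact h1

theorem scc_map_le (p : ℕ) (H : Subgroup X) (φ : X ≃* X) :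
    (sylowCenterClosure p H).map φ.toMonoidHom ≤ sylowCenterClosure p (H.map φ.toMonoidHom) := by
  rw [Helper54.scc_eq, Subgroup.map_iSup]
  apply iSup_le
  intro S
  rw [Helper54.zOf_map]
  have h1 : Helper54.SylIn p ((S : Subgroup ↥H).map H.subtype) H := ⟨S, rfl⟩
  exact Helper54.zOf_le_scc (h1.map φ)

theorem vertexZ_smul_le (p : ℕ) (M₁ M₂ : Subgroup X) (g : X) (ν : CosetVertex M₁ M₂) :
    (vertexZ p ν).map (MulAut.conj g).toMonoidHom ≤ vertexZ p (g • ν) := by
  have h := scc_map_le p (MulAction.stabilizer X ν) (MulAut.conj g)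
  rw [← MulAction.stabilizer_smul_eq_stabilizer_map_conj] at h
  exact h

theorem vIter_smul_le (p : ℕ) (M₁ M₂ : Subgroup X) (hgen : M₁ ⊔ M₂ = ⊤) (k : ℕ) (g : X)
    (ν : CosetVertex M₁ M₂) :
    (vertexVIter p M₁ M₂ k ν).map (MulAut.conj g).toMonoidHom ≤ vertexVIter p M₁ M₂ k (g • ν) := by
  unfold vertexVIter
  rw [Subgroup.map_iSup]
  apply iSup_le
  rintro ⟨ν', hν'⟩
  refine (vertexZ_smul_le p M₁ M₂ g ν').trans ?_
  exact le_iSup (fun μ : {μ : CosetVertex M₁ M₂ // (cosetGraph M₁ M₂).dist (g • ν) μ ≤ k} =>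
    vertexZ p (μ : CosetVertex M₁ M₂)) ⟨g • ν', (cg_dist_smul_le M₁ M₂ hgen g ν ν').trans hν'⟩

theorem vIter_smul_eq (p : ℕ) (M₁ M₂ : Subgroup X) (hgen : M₁ ⊔ M₂ = ⊤) (k : ℕ) (g : X)
    (ν : CosetVertex M₁ M₂) :
    vertexVIter p M₁ M₂ k (g • ν) = (vertexVIter p M₁ M₂ k ν).map (MulAut.conj g).toMonoidHom := by
  apply le_antisymm _ (vIter_smul_le p M₁ M₂ hgen k g ν)
  have h1 := vIter_smul_le p M₁ M₂ hgen k g⁻¹ (g • ν)
  rw [inv_smul_smul] at h1
  have h2 := Subgroup.map_mono (f := (MulAut.conj g).toMonoidHom) h1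
  have e : ((vertexVIter p M₁ M₂ k (g • ν)).map (MulAut.conj g⁻¹).toMonoidHom).map
      (MulAut.conj g).toMonoidHom = vertexVIter p M₁ M₂ k (g • ν) := by
    show Helper54.cj g (Helper54.cj g⁻¹ _) = _
    rw [← Helper54.cj_mul, mul_inv_cancel, Helper54.cj_one]
  rw [e] at h2
  exact h2

theorem stab_le_normalizer_vIter (p : ℕ) (M₁ M₂ : Subgroup X) (hgen : M₁ ⊔ M₂ = ⊤) (k : ℕ)
    (ν : CosetVertex M₁ M₂) :
    MulAction.stabilizer X ν ≤ Subgroup.normalizer (vertexVIter p M₁ M₂ k ν : Set X) := by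
  apply Helper54.le_normalizer_of_cj_le
  intro g hg
  have h := vIter_smul_le p M₁ M₂ hgen k g ν
  rw [MulAction.mem_stabilizer_iff.mp hg] at h
  exact h

theorem vertexZ_le_vIter (p : ℕ) (M₁ M₂ : Subgroup X) (k : ℕ) {ν ν' : CosetVertex M₁ M₂}
    (h : (cosetGraph M₁ M₂).dist ν ν' ≤ k) : vertexZ p ν' ≤ vertexVIter p M₁ M₂ k ν :=
  le_iSup (fun μ : {μ : CosetVertex M₁ M₂ // (cosetGraph M₁ M₂).dist ν μ ≤ k} =>
    vertexZ p (μ : CosetVertex M₁ M₂)) ⟨ν', h⟩

theorem vIter_le_vIter_of_adj (p : ℕ) (M₁ M₂ : Subgroup X) (hgen : M₁ ⊔ M₂ = ⊤) {k : ℕ}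
    {ν μ : CosetVertex M₁ M₂} (hadj : (cosetGraph M₁ M₂).Adj ν μ) :
    vertexVIter p M₁ M₂ k μ ≤ vertexVIter p M₁ M₂ (k + 1) ν := by
  have hconn := Helper54.cg_connected M₁ M₂ hgen
  unfold vertexVIter
  apply iSup_le
  rintro ⟨ν', hν'⟩
  have h1 : (cosetGraph M₁ M₂).dist ν ν' ≤
      (cosetGraph M₁ M₂).dist ν μ + (cosetGraph M₁ M₂).dist μ ν' := hconn.dist_triangle
  have h2 : (cosetGraph M₁ M₂).dist ν μ = 1 := SimpleGraph.dist_eq_one_iff_adj.2 hadj
  exact le_iSup (fun μ : {μ : CosetVertex M₁ M₂ // (cosetGraph M₁ M₂).dist ν μ ≤ k + 1} =>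
    vertexZ p (μ : CosetVertex M₁ M₂)) ⟨ν', by omega⟩

/-! ### the basic amalgam argument -/

/-- `G_λ` normalizes `W` as soon as `O^p(L_λ)` and the edge stabilizer do. -/
theorem stab_le_normalizer_of_residual [Fact p.Prime] (M₁ M₂ : Subgroup X)
    (h : IsSpeAmalgamPair p M₁ M₂) {lam mu : CosetVertex M₁ M₂}
    (hadj : (cosetGraph M₁ M₂).Adj lam mu) (W : Subgroup X)
    (hWR : ((Cfsg.pResidual p ↥(Cfsg.pElementClosure p (MulAction.stabilizer X lam))).map
      (Cfsg.pElementClosure p (MulAction.stabilizer X lam)).subtype) ≤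
        Subgroup.normalizer (W : Set X))
    (hWE : MulAction.stabilizer X lam ⊓ MulAction.stabilizer X mu ≤
      Subgroup.normalizer (W : Set X)) :
    MulAction.stabilizer X lam ≤ Subgroup.normalizer (W : Set X) := by
  have hP := Helper54.charPPair_of h.1
  have hN := Helper54.edge_normCond (Helper54.normCond_of h) hadj
  obtain ⟨T, hT⟩ := Helper54.sylIn_exists p
    (MulAction.stabilizer X lam ⊓ MulAction.stabilizer X mu)
  obtain ⟨s1, -⟩ := Helper54.edge_syl hP hadj hT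
  obtain ⟨-, n2⟩ := hN T hT
  haveI := Helper54.vtx_finite hP lam
  have f1 := Helper54.frattini_pElem s1
  have hLle := Helper54.pElementClosure_le p (MulAction.stabilizer X lam)
  have hTL : T ≤ Cfsg.pElementClosure p (MulAction.stabilizer X lam) :=
    Helper54.le_pElementClosure s1.isPGroup s1.le
  obtain ⟨S, hS⟩ := s1.mono hTL hLle
  haveI : Finite ↥(Cfsg.pElementClosure p (MulAction.stabilizer X lam)) :=
    Finite.of_injective (Subgroup.inclusion hLle) (Subgroup.inclusion_injective hLle)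
  have hLW : Cfsg.pElementClosure p (MulAction.stabilizer X lam) ≤
      Subgroup.normalizer (W : Set X) := by
    intro l hl
    obtain ⟨r, hr, hrS⟩ := sylow_exists_residual_mul S ⟨l, hl⟩
    have h1 : (r : X) ∈ Subgroup.normalizer (W : Set X) := hWR ⟨r, hr, rfl⟩
    have h2 : ((r⁻¹ * ⟨l, hl⟩ : ↥(Cfsg.pElementClosure p (MulAction.stabilizer X lam))) : X) ∈ T := by
      rw [hS]; exact ⟨_, hrS, rfl⟩
    have h3 := hWE (hT.le h2)
    have e : l = (r : X) *
        ((r⁻¹ * ⟨l, hl⟩ : ↥(Cfsg.pElementClosure p (MulAction.stabilizer X lam))) : X) := by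
      simp
    rw [e]; exact Subgroup.mul_mem _ h1 h3
  exact f1.trans (sup_le hLW (n2.trans hWE))

/-- A subgroup of `Q_λ` normalized by `G_μ` and `O^p(L_λ)` is trivial. -/
theorem amalgam_key [Fact p.Prime] (M₁ M₂ : Subgroup X) (h : IsSpeAmalgamPair p M₁ M₂)
    {lam mu : CosetVertex M₁ M₂} (hadj : (cosetGraph M₁ M₂).Adj lam mu) (W : Subgroup X)
    (hWmu : MulAction.stabilizer X mu ≤ Subgroup.normalizer (W : Set X))
    (hWR : ((Cfsg.pResidual p ↥(Cfsg.pElementClosure p (MulAction.stabilizer X lam))).map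
      (Cfsg.pElementClosure p (MulAction.stabilizer X lam)).subtype) ≤
        Subgroup.normalizer (W : Set X))
    (hWQ : W ≤ vertexQ p lam) : W = ⊥ := by
  have hP := Helper54.charPPair_of h.1
  have hlam := stab_le_normalizer_of_residual M₁ M₂ h hadj W hWR (inf_le_right.trans hWmu)
  exact Helper54.edge_normalized_trivial hP hadj (hWQ.trans (le_inf (Helper54.pCoreOf_le p _)
    ((Helper54.vertexQ_le_nbrKernel hP lam).trans (Helper54.nbrKernel_le_nbr hadj)))) hlam hWmu

theorem vertexZ_ne_bot [Fact p.Prime] (M₁ M₂ : Subgroup X) (h : IsSpeAmalgamPair p M₁ M₂)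
    (mu : CosetVertex M₁ M₂) : vertexZ p mu ≠ ⊥ := by
  intro hbot
  have hP := Helper54.charPPair_of h.1
  obtain ⟨lam, hadj⟩ := Helper54.exists_nbr M₁ M₂ mu
  obtain ⟨T, hT⟩ := Helper54.sylIn_exists p
    (MulAction.stabilizer X mu ⊓ MulAction.stabilizer X lam)
  obtain ⟨s1, s2⟩ := Helper54.edge_syl hP hadj hT
  haveI := Helper54.vtx_finite hP mu
  haveI : Finite ↥T := Finite.of_injective (Subgroup.inclusion s1.le)
    (Subgroup.inclusion_injective s1.le)
  have hz : Helper54.zOf p T = ⊥ := by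
    rw [eq_bot_iff, ← hbot]; exact Helper54.zOf_le_scc s1
  have hT1 : T = ⊥ := by
    by_contra hne
    exact zOf_ne_bot s1.isPGroup hne hz
  have hstab : ∀ ν : CosetVertex M₁ M₂, Helper54.SylIn p T (MulAction.stabilizer X ν) →
      MulAction.stabilizer X ν = ⊥ := by
    intro ν hs
    have hQ : vertexQ p ν = ⊥ := by
      rw [eq_bot_iff, ← hT1]; exact Helper54.pCoreOf_le_sylIn hs
    have hc := Helper54.vtx_charp hP ν
    rw [hQ] at hc
    rw [eq_bot_iff]
    intro x hx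
    apply hc
    refine Subgroup.mem_inf.mpr ⟨hx, ?_⟩
    rw [Subgroup.mem_centralizer_iff]
    intro y hy
    rw [Subgroup.mem_bot.mp hy]; simp
  have htop : (⊤ : Subgroup X) = ⊥ := by
    rw [← Helper54.edge_gen hP hadj, hstab mu s1, hstab lam s2, sup_bot_eq]
  apply h.1.1.2.1
  rw [htop, eq_bot_iff, ← htop]
  exact le_top

/-! ### the two statements -/

theorem amalgam_noncentral_two [Fact p.Prime] (M₁ M₂ : Subgroup X) (h : IsSpeAmalgamPair p M₁ M₂)
    (lam : CosetVertex M₁ M₂) (n : ℕ) (hn : 2 ≤ n)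
    (hVQ : vertexVIter p M₁ M₂ n lam ≤ vertexQ p lam) :
    ¬ ⁅vertexVIter p M₁ M₂ n lam,
      ((Cfsg.pResidual p ↥(Cfsg.pElementClosure p (MulAction.stabilizer X lam))).map
        (Cfsg.pElementClosure p (MulAction.stabilizer X lam)).subtype)⁆ ≤
      vertexVIter p M₁ M₂ (n - 2) lam := by
  intro hc
  have hgen := h.1.1.1
  obtain ⟨mu, hadj⟩ := Helper54.exists_nbr M₁ M₂ lam
  obtain ⟨m, rfl⟩ : ∃ m, n = m + 2 := ⟨n - 2, by omega⟩
  rw [Nat.add_sub_cancel] at hc
  have hW1 : vertexVIter p M₁ M₂ (m + 1) mu ≤ vertexVIter p M₁ M₂ (m + 2) lam :=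
    vIter_le_vIter_of_adj p M₁ M₂ hgen hadj
  have hW2 : vertexVIter p M₁ M₂ m lam ≤ vertexVIter p M₁ M₂ (m + 1) mu :=
    vIter_le_vIter_of_adj p M₁ M₂ hgen hadj.symm
  have hWR : ((Cfsg.pResidual p ↥(Cfsg.pElementClosure p (MulAction.stabilizer X lam))).map
      (Cfsg.pElementClosure p (MulAction.stabilizer X lam)).subtype) ≤
        Subgroup.normalizer (vertexVIter p M₁ M₂ (m + 1) mu : Set X) := by
    apply le_normalizer_of_conj_mem
    intro r hr w hw
    have h1 : ⁅w, r⁆ ∈ vertexVIter p M₁ M₂ m lam :=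
      hc (Subgroup.commutator_mem_commutator (hW1 hw) hr)
    have e : r * w * r⁻¹ = (⁅w, r⁆)⁻¹ * w := by rw [commutatorElement_def]; group
    rw [e]
    exact Subgroup.mul_mem _ (Subgroup.inv_mem _ (hW2 h1)) hw
  have hW := amalgam_key M₁ M₂ h hadj _ (stab_le_normalizer_vIter p M₁ M₂ hgen (m + 1) mu) hWR
    (hW1.trans hVQ)
  apply vertexZ_ne_bot M₁ M₂ h mu
  rw [eq_bot_iff, ← hW]
  exact vertexZ_le_vIter p M₁ M₂ (m + 1) (by simp)

theorem amalgam_noncentral_one [Fact p.Prime] (M₁ M₂ : Subgroup X) (h : IsSpeAmalgamPair p M₁ M₂)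
    (lam : CosetVertex M₁ M₂) (n : ℕ) (hn : 1 ≤ n) (V : Subgroup X)
    (hV : V = vertexVIter p M₁ M₂ n lam) (hVQ : V ≤ vertexQ p lam) :
    ¬ ⁅V, ((Cfsg.pResidual p ↥(Cfsg.pElementClosure p (MulAction.stabilizer X lam))).map
        (Cfsg.pElementClosure p (MulAction.stabilizer X lam)).subtype)⁆ ≤
      ⁅V, vertexQ p lam⁆ := by
  intro hc
  have hgen := h.1.1.1
  have hP := Helper54.charPPair_of h.1
  have hconn := Helper54.cg_connected M₁ M₂ hgen
  obtain ⟨mu, hadj⟩ := Helper54.exists_nbr M₁ M₂ lam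
  obtain ⟨m, rfl⟩ : ∃ m, n = m + 1 := ⟨n - 1, by omega⟩
  obtain ⟨W, hW⟩ : ∃ W, W = vertexVIter p M₁ M₂ m mu := ⟨_, rfl⟩
  have hWV : W ≤ V := by rw [hW, hV]; exact vIter_le_vIter_of_adj p M₁ M₂ hgen hadj
  have hGlV : MulAction.stabilizer X lam ≤ Subgroup.normalizer (V : Set X) := by
    rw [hV]; exact stab_le_normalizer_vIter p M₁ M₂ hgen (m + 1) lam
  have hGmW : MulAction.stabilizer X mu ≤ Subgroup.normalizer (W : Set X) := by
    rw [hW]; exact stab_le_normalizer_vIter p M₁ M₂ hgen m mu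
  have hQl : vertexQ p lam ≤ MulAction.stabilizer X lam ⊓ MulAction.stabilizer X mu :=
    le_inf (Helper54.pCoreOf_le p _)
      ((Helper54.vertexQ_le_nbrKernel hP lam).trans (Helper54.nbrKernel_le_nbr hadj))
  have hGlQ : MulAction.stabilizer X lam ≤ Subgroup.normalizer (vertexQ p lam : Set X) :=
    Helper54.pCoreOf_normal p _
  obtain ⟨W1, hW1⟩ : ∃ W1, W1 = W ⊔ ⁅V, vertexQ p lam⁆ := ⟨_, rfl⟩
  have hVQc : ⁅V, vertexQ p lam⁆ ≤ V :=
    Helper56.commutator_le_of_le_normalizer V _ ((hQl.trans inf_le_left).trans hGlV)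
  have hW1V : W1 ≤ V := by rw [hW1]; exact sup_le hWV hVQc
  have hRW1 : ((Cfsg.pResidual p ↥(Cfsg.pElementClosure p (MulAction.stabilizer X lam))).map
      (Cfsg.pElementClosure p (MulAction.stabilizer X lam)).subtype) ≤
        Subgroup.normalizer (W1 : Set X) := by
    apply le_normalizer_of_conj_mem
    intro r hr w hw
    have h1 : ⁅w, r⁆ ∈ ⁅V, vertexQ p lam⁆ :=
      hc (Subgroup.commutator_mem_commutator (hW1V hw) hr)
    have e : r * w * r⁻¹ = (⁅w, r⁆)⁻¹ * w := by rw [commutatorElement_def]; group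
    rw [e]
    exact Subgroup.mul_mem _ (Subgroup.inv_mem _ (by rw [hW1]; exact Subgroup.mem_sup_right h1)) hw
  have hEW1 : MulAction.stabilizer X lam ⊓ MulAction.stabilizer X mu ≤
      Subgroup.normalizer (W1 : Set X) := by
    rw [hW1]
    refine le_trans (le_inf (inf_le_right.trans hGmW) ?_) (Helper56.normalizer_inf_le_sup _ _)
    exact inf_le_left.trans (le_trans (le_inf hGlV hGlQ)
      (normalizer_inf_le_normalizer_commutator' V _))
  have hGlW1 := stab_le_normalizer_of_residual M₁ M₂ h hadj W1 hRW1 hEW1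
  have hVW1 : V ≤ W1 := by
    rw [hV]
    unfold vertexVIter
    apply iSup_le
    rintro ⟨ν, hν⟩
    by_cases hne : lam = ν
    · subst hne
      apply Helper54.scc_le_of
      intro T' hT'
      obtain ⟨T, hT⟩ := Helper54.sylIn_exists p
        (MulAction.stabilizer X lam ⊓ MulAction.stabilizer X mu)
      obtain ⟨s1, s2⟩ := Helper54.edge_syl hP hadj hT
      haveI := Helper54.vtx_finite hP lam
      obtain ⟨g, hg, rfl⟩ := s1.conj hT'
      rw [← Helper54.zOf_map]
      have h1 : Helper54.zOf p T ≤ W1 := by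
        rw [hW1, hW]
        exact ((Helper54.zOf_le_scc s2).trans
          (vertexZ_le_vIter p M₁ M₂ m (by simp))).trans le_sup_left
      calc (Helper54.zOf p T).map (MulAut.conj g).toMonoidHom
          ≤ W1.map (MulAut.conj g).toMonoidHom := Subgroup.map_mono h1
        _ = W1 := Helper54.cj_eq_of_mem_normalizer (hGlW1 hg)
    · obtain ⟨μ', hadj', hd⟩ := Helper54.exists_first_step _ hconn hne
      obtain ⟨g, hg, rfl⟩ := Helper54.cg_nbr_trans M₁ M₂ lam mu μ' hadj hadj'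
      have h1 : vertexZ p ν ≤ vertexVIter p M₁ M₂ m (g • mu) :=
        vertexZ_le_vIter p M₁ M₂ m (by omega)
      rw [vIter_smul_eq p M₁ M₂ hgen] at h1
      refine h1.trans ?_
      calc (vertexVIter p M₁ M₂ m mu).map (MulAut.conj g).toMonoidHom
          ≤ W1.map (MulAut.conj g).toMonoidHom :=
            Subgroup.map_mono (by rw [hW1, hW]; exact le_sup_left)
        _ = W1 := Helper54.cj_eq_of_mem_normalizer (hGlW1 hg)
  haveI := Helper54.vtx_finite hP lam
  haveI : Finite ↥(vertexQ p lam) :=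
    Finite.of_injective (Subgroup.inclusion (Helper54.pCoreOf_le p (MulAction.stabilizer X lam)))
      (Subgroup.inclusion_injective _)
  have hVW : V ≤ W := le_of_le_sup_commutator_pgroup (Helper54.pCoreOf_isPGroup p _) hVQ
    (hWV.trans hVQ) (hQl.trans (inf_le_right.trans hGmW)) (by rw [← hW1]; exact hVW1)
  have hVeq : V = W := le_antisymm hVW hWV
  have hWbot : W = ⊥ := Helper54.edge_normalized_trivial hP hadj (hWV.trans (hVQ.trans hQl))
    (by rw [← hVeq]; exact hGlV) hGmW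
  apply vertexZ_ne_bot M₁ M₂ h mu
  rw [eq_bot_iff, ← hWbot, hW]
  exact vertexZ_le_vIter p M₁ M₂ m (by simp)

end amalgam

end Cfsg.Agent.Lib.Helper55
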