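import Cfsg.Agent.Lib.Helper70.D11Defs
import Cfsg.Agent.Lib.Helper56.D11DIG

/-!
# S0679, piece CARDM (helper55, for helper70): order bound from coset representatives
-/

set_option autoImplicit false

namespace Cfsg.Agent.Lib.Helper55.D11

open Equiv Cfsg.Agent.Lib.Helper70.D11

theorem closure_sub (Fs : Subgroup P11) (Rc : List ℕ) (gens : Set P11)
    (h1 : ∃ f ∈ Fs, code (f * 1) ∈ Rc)
    (hstep : ∀ r : P11, code r ∈ Rc → ∀ s ∈ gens,
      (∃ f ∈ Fs, code (f * (r * s)) ∈ Rc) ∧ (∃ f ∈ Fs, code (f * (r * s⁻¹)) ∈ Rc)) :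
    ∀ g ∈ Subgroup.closure gens, ∃ f ∈ Fs, code (f * g) ∈ Rc := by
  intro g hg
  induction hg using Subgroup.closure_induction_right with
  | one => exact h1
  | mul_right x hx y hy ih =>
    obtain ⟨f, hf, hc⟩ := ih
    obtain ⟨f', hf', hc'⟩ := (hstep (f * x) hc y hy).1
    refine ⟨f' * f, Fs.mul_mem hf' hf, ?_⟩
    have e : f' * f * (x * y) = f' * (f * x * y) := by group
    rw [e]
    exact hc'
  | mul_inv_cancel x hx y hy ih =>
    obtain ⟨f, hf, hc⟩ := ih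
    obtain ⟨f', hf', hc'⟩ := (hstep (f * x) hc y hy).2
    refine ⟨f' * f, Fs.mul_mem hf' hf, ?_⟩
    have e : f' * f * (x * y⁻¹) = f' * (f * x * y⁻¹) := by group
    rw [e]
    exact hc'

theorem card_le_of_cosets (Fs T : Subgroup P11) (Rc : List ℕ)
    (hT : ∀ g ∈ T, ∃ f ∈ Fs, code (f * g) ∈ Rc) : Nat.card T ≤ Nat.card Fs * Rc.length := by
  classical
  let R : Set P11 := {r | code r ∈ Rc}
  have hR : Nat.card R ≤ Rc.length :=
    Cfsg.Agent.Lib.Helper56.D11.card_le_of_code R Rc (fun g hg => hg)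
  choose f hf hc using hT
  let ψ : ↥T → ↥Fs × ↥R := fun g => (⟨f g.1 g.2, hf g.1 g.2⟩, ⟨f g.1 g.2 * g.1, hc g.1 g.2⟩)
  have hψ : Function.Injective ψ := by
    intro g g' h
    have h1 : f g.1 g.2 = f g'.1 g'.2 := congrArg (fun z : ↥Fs × ↥R => (z.1 : P11)) h
    have h2 : f g.1 g.2 * g.1 = f g'.1 g'.2 * g'.1 := congrArg (fun z : ↥Fs × ↥R => (z.2 : P11)) h
    rw [h1] at h2
    exact Subtype.ext (mul_left_cancel h2)
  calc Nat.card T ≤ Nat.card (↥Fs × ↥R) := Nat.card_le_card_of_injective ψ hψ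
    _ = Nat.card Fs * Nat.card R := Nat.card_prod _ _
    _ ≤ Nat.card Fs * Rc.length := Nat.mul_le_mul_left _ hR

end Cfsg.Agent.Lib.Helper55.D11
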