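import Mathlib

/-!
Brauer–Fowler style counting (piece DC-P2 for S4719).

`bf_count`: a finite group `T` normalised by an involution `z` whose centraliser in `T` has
at most `c` elements, with `2 * c < |T|`, has a non-identity element `g` with
`|T| ≤ 4 c^2 |C_T(g)|`.
-/

namespace Cfsg.Agent.Lib.Helper55.DCP2

theorem card_subgroup_eq_filter {G : Type*} [Group G] [Fintype G] [DecidableEq G]
    (H : Subgroup G) [DecidablePred (· ∈ H)] :
    Nat.card H = (Finset.univ.filter (· ∈ H)).card := by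
  rw [Nat.card_eq_fintype_card, Fintype.card_subtype]

theorem bf_count {G : Type*} [Group G] [Finite G] (T : Subgroup G) (z : G) (hz : z * z = 1)
    (hzT : ∀ t ∈ T, z * t * z⁻¹ ∈ T) (c : ℕ)
    (hc : Nat.card ↥(T ⊓ Subgroup.centralizer {z}) ≤ c) (hT : 2 * c < Nat.card T) :
    ∃ g ∈ T, g ≠ 1 ∧ Nat.card T ≤ 4 * c ^ 2 * Nat.card ↥(T ⊓ Subgroup.centralizer {g}) := by
  classical
  have : Fintype G := Fintype.ofFinite G
  have hzinv : z⁻¹ = z := inv_eq_of_mul_eq_one_left hz
  set TF : Finset G := Finset.univ.filter (· ∈ T) with hTF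
  have hTFmem : ∀ x, x ∈ TF ↔ x ∈ T := by intro x; simp [hTF]
  have hcardT : Nat.card T = TF.card := card_subgroup_eq_filter T
  set I : Finset G := TF.image (fun t => t * z * t⁻¹) with hI
  have hImem : ∀ a, a ∈ I ↔ ∃ t ∈ T, t * z * t⁻¹ = a := by
    intro a; simp [hI, hTFmem]
  have hIsq : ∀ a ∈ I, a * a = 1 := by
    intro a ha
    obtain ⟨t, _, rfl⟩ := (hImem a).1 ha
    have : t * z * t⁻¹ * (t * z * t⁻¹) = t * (z * z) * t⁻¹ := by group
    rw [this, hz]; group
  have hIinv : ∀ a ∈ I, a⁻¹ = a := fun a ha => inv_eq_of_mul_eq_one_left (hIsq a ha)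
  have hImul : ∀ a ∈ I, ∀ b ∈ I, a * b ∈ T := by
    intro a ha b hb
    obtain ⟨t, ht, rfl⟩ := (hImem a).1 ha
    obtain ⟨s, hs, rfl⟩ := (hImem b).1 hb
    have h1 : z * (t⁻¹ * s) * z⁻¹ ∈ T := hzT _ (T.mul_mem (T.inv_mem ht) hs)
    have h2 : t * z * t⁻¹ * (s * z * s⁻¹) = t * (z * (t⁻¹ * s) * z⁻¹) * s⁻¹ := by
      rw [hzinv]; group
    rw [h2]
    exact T.mul_mem (T.mul_mem ht h1) (T.inv_mem hs)
  -- orbit–stabiliser inequality
  have h1 : TF.card ≤ c * I.card := by
    apply Finset.card_le_mul_card_image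
    intro a ha
    obtain ⟨t0, ht0, rfl⟩ := (hImem _).1 ha
    refine le_trans ?_ hc
    rw [card_subgroup_eq_filter]
    apply Finset.card_le_card_of_injOn (fun t => t0⁻¹ * t)
    · intro t ht
      rw [Finset.mem_coe, Finset.mem_filter] at ht
      rw [Finset.mem_coe, Finset.mem_filter]
      refine ⟨Finset.mem_univ _, ?_⟩
      rw [Subgroup.mem_inf, Subgroup.mem_centralizer_iff]
      refine ⟨T.mul_mem (T.inv_mem ht0) ((hTFmem t).1 ht.1), ?_⟩
      intro h hh
      rw [Set.mem_singleton_iff] at hh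
      subst hh
      have h3 := ht.2
      calc h * (t0⁻¹ * t) = t0⁻¹ * (t0 * h * t0⁻¹) * t := by group
        _ = t0⁻¹ * (t * h * t⁻¹) * t := by rw [h3]
        _ = t0⁻¹ * t * h := by group
    · intro x _ y _ h
      exact mul_left_cancel h
  -- counting pairs
  have hsum : (I ×ˢ I).card = ∑ g ∈ TF, ((I ×ˢ I).filter (fun p => p.1 * p.2 = g)).card := by
    apply Finset.card_eq_sum_card_fiberwise
    intro p hp
    rw [Finset.mem_coe, Finset.mem_product] at hp
    exact Finset.mem_coe.2 ((hTFmem _).2 (hImul _ hp.1 _ hp.2))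
  have hβm : ∀ g, ((I ×ˢ I).filter (fun p => p.1 * p.2 = g)).card ≤ I.card := by
    intro g
    apply Finset.card_le_card_of_injOn (fun p => p.1)
    · intro p hp
      rw [Finset.mem_coe, Finset.mem_filter, Finset.mem_product] at hp
      exact Finset.mem_coe.2 hp.1.1
    · intro p hp q hq h
      rw [Finset.mem_coe, Finset.mem_filter] at hp hq
      have h' : p.1 = q.1 := h
      have h2 : p.1 * p.2 = q.1 * q.2 := hp.2.trans hq.2.symm
      rw [h'] at h2
      exact Prod.ext h' (mul_left_cancel h2)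
  have hinvert : ∀ a ∈ I, ∀ b ∈ I, a * (a * b) * a = (a * b)⁻¹ := by
    intro a ha b hb
    rw [mul_inv_rev, hIinv a ha, hIinv b hb, ← mul_assoc, hIsq a ha, one_mul]
  have hβC : ∀ g, ((I ×ˢ I).filter (fun p => p.1 * p.2 = g)).card
      ≤ Nat.card ↥(T ⊓ Subgroup.centralizer {g}) := by
    intro g
    rw [card_subgroup_eq_filter]
    rcases Finset.eq_empty_or_nonempty ((I ×ˢ I).filter (fun p => p.1 * p.2 = g)) with he | ⟨p0, hp0⟩
    · rw [he]; simp
    · rw [Finset.mem_filter, Finset.mem_product] at hp0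
      obtain ⟨⟨ha0, hb0⟩, hg0⟩ := hp0
      have hi0 : p0.1 * g * p0.1 = g⁻¹ := by
        rw [← hg0]; exact hinvert _ ha0 _ hb0
      apply Finset.card_le_card_of_injOn (fun p => p0.1 * p.1)
      · intro p hp
        rw [Finset.mem_coe, Finset.mem_filter, Finset.mem_product] at hp
        obtain ⟨⟨ha, hb⟩, hg⟩ := hp
        have hi : p.1 * g * p.1 = g⁻¹ := by
          rw [← hg]; exact hinvert _ ha _ hb
        rw [Finset.mem_coe, Finset.mem_filter]
        refine ⟨Finset.mem_univ _, ?_⟩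
        rw [Subgroup.mem_inf, Subgroup.mem_centralizer_iff]
        refine ⟨hImul _ ha0 _ ha, ?_⟩
        intro h hh
        rw [Set.mem_singleton_iff] at hh
        subst hh
        have e1 : p0.1 * (p0.1 * h * p0.1) * p.1 = (p0.1 * p0.1) * h * (p0.1 * p.1) := by group
        have e2 : p0.1 * (p.1 * h * p.1) * p.1 = p0.1 * p.1 * h * (p.1 * p.1) := by group
        calc h * (p0.1 * p.1) = p0.1 * (p0.1 * h * p0.1) * p.1 := by
              rw [e1, hIsq _ ha0, one_mul]
          _ = p0.1 * h⁻¹ * p.1 := by rw [hi0]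
          _ = p0.1 * (p.1 * h * p.1) * p.1 := by rw [hi]
          _ = p0.1 * p.1 * h := by rw [e2, hIsq _ ha, mul_one]
      · intro p hp q hq h
        rw [Finset.mem_coe, Finset.mem_filter] at hp hq
        have h' : p.1 = q.1 := mul_left_cancel h
        have h2 : p.1 * p.2 = q.1 * q.2 := hp.2.trans hq.2.symm
        rw [h'] at h2
        exact Prod.ext h' (mul_left_cancel h2)
  by_contra hneg
  push Not at hneg
  have h1T : (1 : G) ∈ TF := (hTFmem 1).2 T.one_mem
  have hsplit : ((I ×ˢ I).filter (fun p => p.1 * p.2 = (1 : G))).card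
      + ∑ g ∈ TF.erase 1, ((I ×ˢ I).filter (fun p => p.1 * p.2 = g)).card = I.card * I.card := by
    rw [Finset.add_sum_erase TF (fun g => ((I ×ˢ I).filter (fun p => p.1 * p.2 = g)).card) h1T,
      ← hsum, Finset.card_product]
  have hk : (TF.erase 1).card + 1 = TF.card := Finset.card_erase_add_one h1T
  have hS : ∑ g ∈ TF.erase 1, 4 * c ^ 2 * ((I ×ˢ I).filter (fun p => p.1 * p.2 = g)).card
      ≤ (TF.erase 1).card * TF.card := by
    rw [← smul_eq_mul]
    apply Finset.sum_le_card_nsmul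
    intro g hg
    rw [Finset.mem_erase] at hg
    have h3 := hneg g ((hTFmem g).1 hg.2) hg.1
    rw [hcardT] at h3
    exact le_of_lt (lt_of_le_of_lt (Nat.mul_le_mul_left _ (hβC g)) h3)
  rw [← Finset.mul_sum] at hS
  rw [hcardT] at hT
  have hb1 := hβm 1
  generalize ((I ×ˢ I).filter (fun p => p.1 * p.2 = (1 : G))).card = b1 at hsplit hb1
  generalize ∑ g ∈ TF.erase 1, ((I ×ˢ I).filter (fun p => p.1 * p.2 = g)).card = S at hsplit hS
  generalize (TF.erase 1).card = k at hk hS
  generalize TF.card = N at hk hS h1 hT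
  generalize I.card = m at hsplit hb1 h1
  have hm3 : 3 ≤ m := by
    by_contra h
    have h4 : m ≤ 2 := by omega
    have h5 : c * m ≤ c * 2 := Nat.mul_le_mul_left c h4
    omega
  have hc1 : 1 ≤ c := by
    rcases Nat.eq_zero_or_pos c with h | h
    · subst h; simp at h1; omega
    · exact h
  have e1 : 4 * c ^ 2 * (m * m) = 4 * c ^ 2 * b1 + 4 * c ^ 2 * S := by rw [← hsplit, mul_add]
  have e2 : 4 * c ^ 2 * b1 ≤ 4 * c ^ 2 * m := Nat.mul_le_mul_left _ hb1
  have e3 : k * N + N = N * N := by rw [← hk]; ring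
  have e4 : N * N ≤ (c * m) * (c * m) := Nat.mul_le_mul h1 h1
  have e5 : c ^ 2 * m * 3 ≤ c ^ 2 * m * m := Nat.mul_le_mul_left _ hm3
  have e6 : 0 < c ^ 2 * m := by positivity
  have r1 : 4 * c ^ 2 * (m * m) = 4 * (c ^ 2 * m * m) := by ring
  have r2 : (c * m) * (c * m) = c ^ 2 * m * m := by ring
  have r3 : 4 * c ^ 2 * m = 4 * (c ^ 2 * m) := by ring
  have hN : 0 < N := by omega
  rw [r1] at e1
  rw [r2] at e4
  rw [r3] at e2
  generalize c ^ 2 * m * m = Y at e1 e4 e5
  generalize c ^ 2 * m = X at e2 e5 e6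
  generalize 4 * c ^ 2 * b1 = A at e1 e2
  generalize 4 * c ^ 2 * S = B at e1 hS
  generalize k * N = C at e3 hS
  generalize N * N = D at e3 e4
  omega

end Cfsg.Agent.Lib.Helper55.DCP2
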