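import Mathlib
import Cfsg.Agent.Lib.Helper91.PslU

/-!
# Piece B2 for S5163 (helper91): a nontrivial subgroup of `SL_n(K)` inside the upper
unitriangular group `UU` and normalized by `UU` contains a nontrivial transvection
-/

set_option autoImplicit false

namespace Cfsg.Agent.Lib.Helper55.PslB2

open Matrix Matrix.SpecialLinearGroup Cfsg.Agent.Lib.Helper91.PslU Cfsg.Agent.Lib.Helper24

/-- the elementary transvections `1 + E_{k,k+1}` are upper unitriangular -/
theorem transv_succ_mem_UU {n : ℕ} (K : Type*) [Field K] (k k' : Fin n)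
    (hk : (k : ℕ) + 1 = (k' : ℕ)) (hne : k ≠ k') : transvection hne (1 : K) ∈ UU n K := by
  rw [mem_UU_iff]
  refine ⟨fun i j hji => ?_, fun i => ?_⟩
  · rw [transvection_coe, Matrix.add_apply, Matrix.one_apply_ne (ne_of_gt hji), zero_add]
    apply Matrix.single_apply_of_ne
    rintro ⟨h1, h2⟩
    have h3 : (j : ℕ) < (i : ℕ) := hji
    rw [← h1, ← h2] at h3
    omega
  · rw [transvection_coe, Matrix.add_apply, Matrix.one_apply_eq]
    have : Matrix.single k k' (1 : K) i i = 0 := by
      apply Matrix.single_apply_of_ne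
      rintro ⟨h1, h2⟩
      exact hne (h1.trans h2.symm)
    rw [this, add_zero]

/-- a matrix commuting with the matrix unit `E_{k,k'}` -/
theorem mat_comm_single {n : ℕ} (K : Type*) [Field K] (X : Matrix (Fin n) (Fin n) K)
    (k k' : Fin n)
    (h' : X * Matrix.single k k' (1 : K) = Matrix.single k k' (1 : K) * X) :
    (∀ c : Fin n, c ≠ k → X c k = 0) ∧ (∀ d : Fin n, d ≠ k' → X k' d = 0) := by
  refine ⟨fun c hc => ?_, fun d hd => ?_⟩
  · have e := congrFun (congrFun h' c) k'
    rw [Matrix.mul_single_apply_same, Matrix.single_mul_apply_of_ne (h := hc), mul_one] at e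
    exact e
  · have e := congrFun (congrFun h' k) d
    rw [Matrix.mul_single_apply_of_ne (hbj := hd), Matrix.single_mul_apply_same, one_mul] at e
    exact e.symm

/-- an element of `UU` commuting with all of `UU` has all off-diagonal entries zero, except
possibly the corner entry -/
theorem central_entries {n : ℕ} (K : Type*) [Field K] (x : SpecialLinearGroup (Fin n) K)
    (hcomm : ∀ u ∈ UU n K, x * u = u * x) (a b : Fin n) (hab : a ≠ b) (hx : x.1 a b ≠ 0) :
    (a : ℕ) = 0 ∧ (b : ℕ) + 1 = n := by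
  have key : ∀ (k k' : Fin n), (k : ℕ) + 1 = (k' : ℕ) →
      (∀ c : Fin n, c ≠ k → x.1 c k = 0) ∧ (∀ d : Fin n, d ≠ k' → x.1 k' d = 0) := by
    intro k k' hk
    have hne : k ≠ k' := by
      intro h
      rw [h] at hk
      omega
    have h0 := congrArg Subtype.val (hcomm _ (transv_succ_mem_UU K k k' hk hne))
    have ht : (transvection hne (1 : K)).1 = 1 + Matrix.single k k' (1 : K) :=
      transvection_coe hne 1
    have h : x.1 * (transvection hne (1 : K)).1 = (transvection hne (1 : K)).1 * x.1 := h0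
    rw [ht, mul_add, add_mul, mul_one, one_mul] at h
    have h' : x.1 * Matrix.single k k' (1 : K) = Matrix.single k k' (1 : K) * x.1 :=
      add_left_cancel h
    exact mat_comm_single K x.1 k k' h'
  constructor
  · by_contra ha
    have ha' : 0 < (a : ℕ) := Nat.pos_of_ne_zero ha
    have hlt : (a : ℕ) - 1 < n := by have := a.2; omega
    have := (key ⟨(a : ℕ) - 1, hlt⟩ a (by show (a : ℕ) - 1 + 1 = (a : ℕ); omega)).2 b hab.symm
    exact hx this
  · by_contra hb
    have hlt : (b : ℕ) + 1 < n := by have := b.2; omega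
    have := (key b ⟨(b : ℕ) + 1, hlt⟩ rfl).1 a hab
    exact hx this

theorem UU_normal_transv {n : ℕ} (K : Type*) [Field K] [Fintype K] (p : ℕ) [Fact p.Prime]
    [CharP K p] (T : Subgroup (SpecialLinearGroup (Fin n) K)) (hT : T ≤ UU n K) (hT1 : T ≠ ⊥)
    (hTn : ∀ u ∈ UU n K, ∀ x ∈ T, u * x * u⁻¹ ∈ T) :
    ∃ (i j : Fin n) (hij : i ≠ j) (a : K), a ≠ 0 ∧ transvection hij a ∈ T := by
  -- an element of `T` of maximal level
  have hstep : ∃ (m : ℕ) (x : SpecialLinearGroup (Fin n) K), x ∈ T ∧ x ≠ 1 ∧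
      StrictTri (gr n) (m + 1) (x.1 - 1) ∧
      ∀ y ∈ T, StrictTri (gr n) (m + 2) (y.1 - 1) → y = 1 := by
    by_contra hcon
    push Not at hcon
    have hall : ∀ m : ℕ, ∃ x : SpecialLinearGroup (Fin n) K, x ∈ T ∧ x ≠ 1 ∧
        StrictTri (gr n) (m + 1) (x.1 - 1) := by
      intro m
      induction m with
      | zero =>
        obtain ⟨x, hx⟩ := (Subgroup.ne_bot_iff_exists_ne_one).mp hT1
        refine ⟨x.1, x.2, fun h => hx (Subtype.ext h), ?_⟩
        exact hT x.2
      | succ m ih =>
        obtain ⟨x, hxT, hx1, hxl⟩ := ih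
        obtain ⟨y, hyT, hyl, hy1⟩ := hcon m x hxT hx1 hxl
        exact ⟨y, hyT, hy1, hyl⟩
    obtain ⟨x, hxT, hx1, hxl⟩ := hall n
    have h0 : x.1 - 1 = 0 := hxl.eq_zero (B := n + 1) (fun i => by unfold gr; omega) le_rfl
    exact hx1 (Subtype.ext (sub_eq_zero.mp h0))
  obtain ⟨m, x, hxT, hx1, hxl, hmax⟩ := hstep
  -- `x` commutes with `UU`
  have hcomm : ∀ u ∈ UU n K, x * u = u * x := by
    intro u hu
    have hxg : toGL x ∈ utSubgroup (R := K) (gr n) (m + 1) (by omega) := hxl
    have huG : toGL u ∈ utSubgroup (R := K) (gr n) 1 le_rfl := hu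
    have hc := commutator_mem_utSubgroup (R := K) (b := gr n) (k := m + 1) (by omega)
      (toGL x) (toGL u) hxg huG
    have he : toGL x * toGL u * (toGL x)⁻¹ * (toGL u)⁻¹ = toGL (x * u * x⁻¹ * u⁻¹) := by
      simp only [map_mul, map_inv]
    rw [he] at hc
    have hc' : StrictTri (gr n) (m + 2) ((x * u * x⁻¹ * u⁻¹).1 - 1) := hc
    have hcT : x * u * x⁻¹ * u⁻¹ ∈ T := by
      have h := T.mul_mem hxT (hTn u hu x⁻¹ (T.inv_mem hxT))
      have e : x * (u * x⁻¹ * u⁻¹) = x * u * x⁻¹ * u⁻¹ := by group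
      rwa [e] at h
    have h1 := hmax _ hcT hc'
    calc x * u = (x * u * x⁻¹ * u⁻¹) * (u * x) := by group
      _ = u * x := by rw [h1, one_mul]
  have hxU := (mem_UU_iff n K x).mp (hT hxT)
  -- a nonzero off-diagonal entry
  have hex : ∃ a b : Fin n, a ≠ b ∧ x.1 a b ≠ 0 := by
    by_contra hcon
    push Not at hcon
    apply hx1
    apply Subtype.ext
    ext a b
    by_cases hab : a = b
    · subst hab
      rw [hxU.2 a]
      exact (Matrix.one_apply_eq a).symm
    · rw [hcon a b hab]
      exact (Matrix.one_apply_ne hab).symm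
  obtain ⟨a, b, hab, hxab⟩ := hex
  obtain ⟨ha0, hbn⟩ := central_entries K x hcomm a b hab hxab
  refine ⟨a, b, hab, x.1 a b, hxab, ?_⟩
  have hxe : transvection hab (x.1 a b) = x := by
    apply Subtype.ext
    ext c d
    rw [transvection_coe, Matrix.add_apply]
    by_cases hcd : c = d
    · subst hcd
      rw [Matrix.one_apply_eq, hxU.2 c, Matrix.single_apply_of_ne, add_zero]
      rintro ⟨h1, h2⟩
      exact hab (h1.trans h2.symm)
    · rw [Matrix.one_apply_ne hcd, zero_add]
      by_cases hz : x.1 c d = 0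
      · rw [hz]
        apply Matrix.single_apply_of_ne
        rintro ⟨rfl, rfl⟩
        exact hxab hz
      · obtain ⟨hc0, hdn⟩ := central_entries K x hcomm c d hcd hz
        have hca : c = a := Fin.ext (by omega)
        have hdb : d = b := Fin.ext (by omega)
        subst hca; subst hdb
        exact Matrix.single_apply_same _ _ _
  rw [hxe]
  exact hxT

end Cfsg.Agent.Lib.Helper55.PslB2
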