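import Mathlib
import Cfsg.Agent.Lib.Helper42.RTDefs

/-! Piece FROB of the S5047 project (helper42): a Frobenius-type fixed point statement for the
operator `theta ρ` on an abelian subgroup of exponent 2. -/

set_option autoImplicit false

namespace Cfsg.Agent.Lib.Helper55.RT

open Cfsg.Agent.Lib.Helper42.RT

variable {G : Type*} [Group G]

private theorem theta_mem (ρ : G) (N : Subgroup G) (hN1 : ∀ g ∈ N, ρ * g * ρ⁻¹ ∈ N)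
    (hN2 : ∀ g ∈ N, ρ⁻¹ * g * ρ ∈ N) {g : G} (hg : g ∈ N) : theta ρ g ∈ N := by
  rw [theta_def]
  exact N.mul_mem (hN1 g hg) (hN2 g hg)

private theorem theta_iter_mem (ρ : G) (N : Subgroup G) (hN1 : ∀ g ∈ N, ρ * g * ρ⁻¹ ∈ N)
    (hN2 : ∀ g ∈ N, ρ⁻¹ * g * ρ ∈ N) (k : ℕ) {g : G} (hg : g ∈ N) :
    (theta ρ)^[k] g ∈ N := by
  induction k with
  | zero => simpa using hg
  | succ k ih =>
    rw [Function.iterate_succ_apply']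
    exact theta_mem ρ N hN1 hN2 ih

private theorem theta_mul (ρ : G) (N : Subgroup G) (hN1 : ∀ g ∈ N, ρ * g * ρ⁻¹ ∈ N)
    (hN2 : ∀ g ∈ N, ρ⁻¹ * g * ρ ∈ N) (hcomm : ∀ g ∈ N, ∀ h ∈ N, g * h = h * g)
    {g h : G} (hg : g ∈ N) (hh : h ∈ N) : theta ρ (g * h) = theta ρ g * theta ρ h := by
  rw [theta_def, theta_def, theta_def]
  have e1 : ρ * (g * h) * ρ⁻¹ = (ρ * g * ρ⁻¹) * (ρ * h * ρ⁻¹) := by group
  have e2 : ρ⁻¹ * (g * h) * ρ = (ρ⁻¹ * g * ρ) * (ρ⁻¹ * h * ρ) := by group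
  rw [e1, e2]
  have c := hcomm _ (hN1 h hh) _ (hN2 g hg)
  calc ρ * g * ρ⁻¹ * (ρ * h * ρ⁻¹) * (ρ⁻¹ * g * ρ * (ρ⁻¹ * h * ρ))
      = ρ * g * ρ⁻¹ * ((ρ * h * ρ⁻¹) * (ρ⁻¹ * g * ρ)) * (ρ⁻¹ * h * ρ) := by
        simp only [mul_assoc]
    _ = ρ * g * ρ⁻¹ * ((ρ⁻¹ * g * ρ) * (ρ * h * ρ⁻¹)) * (ρ⁻¹ * h * ρ) := by rw [c]
    _ = ρ * g * ρ⁻¹ * (ρ⁻¹ * g * ρ) * (ρ * h * ρ⁻¹ * (ρ⁻¹ * h * ρ)) := by
        simp only [mul_assoc]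

private theorem theta_pow_two (ρ : G) (N : Subgroup G) (hN1 : ∀ g ∈ N, ρ * g * ρ⁻¹ ∈ N)
    (hN2 : ∀ g ∈ N, ρ⁻¹ * g * ρ ∈ N) (hsq : ∀ g ∈ N, g * g = 1) (j : ℕ) :
    ∀ g ∈ N, (theta ρ)^[2 ^ j] g
      = (ρ ^ (2 ^ j) * g * (ρ ^ (2 ^ j))⁻¹) * ((ρ ^ (2 ^ j))⁻¹ * g * ρ ^ (2 ^ j)) := by
  induction j with
  | zero =>
    intro g _
    simp [theta_def]
  | succ j ih =>
    intro g hg
    have h2 : 2 ^ (j + 1) = 2 ^ j + 2 ^ j := by ring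
    rw [h2, Function.iterate_add_apply, pow_add]
    have hh : (theta ρ)^[2 ^ j] g ∈ N := theta_iter_mem ρ N hN1 hN2 _ hg
    rw [ih _ hh, ih g hg]
    set σ := ρ ^ (2 ^ j) with hσ
    have hgg := hsq g hg
    calc σ * (σ * g * σ⁻¹ * (σ⁻¹ * g * σ)) * σ⁻¹ * (σ⁻¹ * (σ * g * σ⁻¹ * (σ⁻¹ * g * σ)) * σ)
        = σ * σ * g * σ⁻¹ * σ⁻¹ * (g * g) * (σ⁻¹ * σ⁻¹ * g * σ * σ) := by group
      _ = σ * σ * g * (σ * σ)⁻¹ * ((σ * σ)⁻¹ * g * (σ * σ)) := by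
        rw [hgg]; group

theorem frob_fix (ρ : G) (N : Subgroup G) (hN1 : ∀ g ∈ N, ρ * g * ρ⁻¹ ∈ N)
    (hN2 : ∀ g ∈ N, ρ⁻¹ * g * ρ ∈ N) (hcomm : ∀ g ∈ N, ∀ h ∈ N, g * h = h * g)
    (hsq : ∀ g ∈ N, g * g = 1) {m : ℕ} (hm : Odd m) (hρ : ρ ^ m = 1) :
    ∃ K : ℕ, 1 ≤ K ∧ ∀ g ∈ N, ρ * ((theta ρ)^[K] g * g) = ((theta ρ)^[K] g * g) * ρ := by
  have hm0 : 0 < m := hm.pos
  set L := Nat.totient m with hL
  have hL1 : 1 ≤ L := Nat.totient_pos.mpr hm0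
  have hcop : Nat.Coprime 2 m := (Nat.coprime_two_left).mpr hm
  have hmod : 2 ^ L ≡ 1 [MOD m] := Nat.ModEq.pow_totient hcop
  have hmod' : 2 ^ L ≡ 1 [MOD orderOf ρ] := hmod.of_dvd (orderOf_dvd_of_pow_eq_one hρ)
  have hpow : ρ ^ (2 ^ L) = ρ := by
    have := (pow_eq_pow_iff_modEq (x := ρ) (n := 2 ^ L) (m := 1)).mpr hmod'
    simpa using this
  have h2L : 2 ≤ 2 ^ L := by
    calc 2 = 2 ^ 1 := by norm_num
      _ ≤ 2 ^ L := Nat.pow_le_pow_right (by norm_num) hL1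
  refine ⟨2 ^ L - 1, by omega, ?_⟩
  intro g hg
  set K := 2 ^ L - 1 with hK
  have hKg : (theta ρ)^[K] g ∈ N := theta_iter_mem ρ N hN1 hN2 _ hg
  have hK1 : K + 1 = 2 ^ L := by omega
  have h3 : theta ρ ((theta ρ)^[K] g) = theta ρ g := by
    have e := Function.iterate_succ_apply' (theta ρ) K g
    rw [← e]
    show (theta ρ)^[K + 1] g = theta ρ g
    rw [hK1, theta_pow_two ρ N hN1 hN2 hsq L g hg, hpow, theta_def]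
  have hyN : (theta ρ)^[K] g * g ∈ N := N.mul_mem hKg hg
  have hθy : theta ρ ((theta ρ)^[K] g * g) = 1 := by
    rw [theta_mul ρ N hN1 hN2 hcomm hKg hg, h3]
    exact hsq _ (theta_mem ρ N hN1 hN2 hg)
  generalize (theta ρ)^[K] g * g = y at hyN hθy ⊢
  have hyy : y * y = 1 := hsq y hyN
  have hyinv : y⁻¹ = y := inv_eq_of_mul_eq_one_left hyy
  rw [theta_def] at hθy
  -- `y` commutes with `ρ ^ 2`
  have hc2 : Commute (ρ ^ 2) y := by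
    have e1 : ρ * y * ρ⁻¹ = (ρ⁻¹ * y * ρ)⁻¹ := eq_inv_of_mul_eq_one_left hθy
    have e2 : (ρ⁻¹ * y * ρ)⁻¹ = ρ⁻¹ * y * ρ := by
      rw [mul_inv_rev, mul_inv_rev, inv_inv, hyinv, mul_assoc]
    rw [e2] at e1
    -- ρ y ρ⁻¹ = ρ⁻¹ y ρ
    show ρ ^ 2 * y = y * ρ ^ 2
    rw [pow_two]
    calc ρ * ρ * y = ρ * (ρ * y * ρ⁻¹) * ρ := by simp [mul_assoc]
      _ = ρ * (ρ⁻¹ * y * ρ) * ρ := by rw [e1]
      _ = y * (ρ * ρ) := by simp [mul_assoc]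
  obtain ⟨k, hk⟩ := hm
  have hρ' : (ρ ^ 2) ^ (k + 1) = ρ := by
    rw [← pow_mul]
    have : 2 * (k + 1) = m + 1 := by omega
    rw [this, pow_succ, hρ, one_mul]
  have hc : Commute ρ y := by
    have := hc2.pow_left (k + 1)
    rwa [hρ'] at this
  exact hc.eq

end Cfsg.Agent.Lib.Helper55.RT
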