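import Mathlib
import Cfsg.Agent.Lib.Helper91.SuU

/-!
# S5172, piece ETD: `uphi` of a diagonal matrix is diagonal
-/

set_option autoImplicit false

namespace Cfsg.Agent.Lib.Helper55.SuETD

open Matrix Cfsg.Agent.Lib.Helper91.SpU Cfsg.Agent.Lib.Helper91.SuU

theorem uphi_diag (l : ℕ) (K : Type*) [Field K] (σ : K →+* K) (hσ : ∀ x, σ (σ x) = x)
    (s : SpecialLinearGroup (Fin l) K)
    (hs : ∀ i j : Fin l, i ≠ j → (s : Matrix (Fin l) (Fin l) K) i j = 0) :
    ∀ a b : Fin l ⊕ Fin l, a ≠ b → mat l K σ (uphi l K σ hσ s) a b = 0 := by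
  obtain ⟨v, hv⟩ : ∃ v : Fin l → K, (s : Matrix (Fin l) (Fin l) K) = Matrix.diagonal v := by
    refine ⟨fun i => (s : Matrix (Fin l) (Fin l) K) i i, ?_⟩
    ext i j
    by_cases hij : i = j
    · subst hij
      rw [Matrix.diagonal_apply_eq]
    · rw [Matrix.diagonal_apply_ne _ hij]
      exact hs i j hij
  have h2 : ((s⁻¹ : SpecialLinearGroup (Fin l) K) : Matrix (Fin l) (Fin l) K) =
      Matrix.diagonal (fun i => ∏ j ∈ Finset.univ.erase i, v j) := by
    rw [Matrix.SpecialLinearGroup.coe_inv, hv, Matrix.adjugate_diagonal]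
  intro a b hab
  rw [uphi_mat, h2, hv]
  rcases a with i | i <;> rcases b with j | j
  · rw [Matrix.fromBlocks_apply₁₁]
    exact Matrix.diagonal_apply_ne _ (fun h => hab (congrArg Sum.inl h))
  · rw [Matrix.fromBlocks_apply₁₂]
    rfl
  · rw [Matrix.fromBlocks_apply₂₁]
    rfl
  · rw [Matrix.fromBlocks_apply₂₂, Matrix.transpose_apply, Matrix.map_apply,
      Matrix.diagonal_apply_ne _ (fun h => hab (congrArg Sum.inr h.symm)), map_zero]

end Cfsg.Agent.Lib.Helper55.SuETD
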